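import Cfsg.Agent.Lib.HH.Loc2

/-!
# The exceptional case of Theorem B for odd `p`: top powers act quadratically
-/

set_option autoImplicit false

namespace Cfsg.Lib.HH.Ferm

open Module LinearMap Subgroup Cfsg.Lib.BG Cfsg.Lib.HH.ModB
open scoped commutatorElement

universe u v

variable {K : Type*} [Field K] {p : ℕ} [hp : Fact p.Prime]

omit hp in
theorem card_le_sq {Q V ι : Type*} [Group Q] [AddCommGroup V] [Module K V] [FiniteDimensional K V] [Nontrivial V]
    [Fintype ι] (ρ : Q →* End K V) {f : ι → Q} {χ : ι → Q →* K} (hχ : Function.Injective χ)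
    (h : ∀ i y, ρ (f i) * ρ y = χ i y • (ρ y * ρ (f i))) : Fintype.card ι ≤ finrank K V ^ 2 := by
  have hu : ∀ g, IsUnit (ρ g) := fun g => (Group.isUnit g).map ρ
  have : LinearIndependent K fun i => ρ (f i) := Fintype.linearIndependent_iff.2 fun a ha i => by
    obtain ⟨φ, hφ⟩ := Projective.exists_dual_ne_zero K (hu (f i)).ne_zero
    refine (mul_eq_zero.1 (Fintype.linearIndependent_iff.1 ((linearIndependent_monoidHom Q K).comp χ hχ)
      (fun j => a j * φ (ρ (f j))) (funext fun y => ?_) i)).resolve_right hφ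
    have h1 := congrArg (· * ρ y) ha
    simp only [Finset.sum_mul, smul_mul_assoc, h, zero_mul, ← mul_smul_comm, ← Finset.mul_sum,
      (hu y).mul_right_eq_zero] at h1
    have h2 := congrArg φ h1
    rw [map_sum, map_zero] at h2
    rw [Finset.sum_apply, Pi.zero_apply, ← h2]
    exact Finset.sum_congr rfl fun j _ => by simp only [map_smul, smul_eq_mul, Pi.smul_apply, Function.comp]; ring
  rw [sq, ← Module.finrank_linearMap K K]
  exact this.fintype_card_le_finrank

variable [CharP K p]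

/-- Theorem B with a lower bound for the degree. -/
theorem coreD [IsAlgClosed K] {Q ι : Type*} [Group Q] [Finite Q] [Fintype ι] (hQ : (Nat.card Q : K) ≠ 0)
    {β : MulAut Q} {f : ι → Q} {χ : ι → Q →* K} (hχ : Function.Injective χ) {a b : Q} {ζ : K} (hζ : ζ ≠ 1)
    (n : ℕ) : ∀ (S : Type u) [Group S] [Finite S] (V : Type v) [AddCommGroup V] [Module K V] [FiniteDimensional K V]
      [Nontrivial V] (ρ : Q →* End K V) (τ : S →* End K V) (α : S →* MulAut Q) (x : S) (r : ℕ),
      (∀ s g, τ s * ρ g = ρ (α s g) * τ s) → x ^ p ^ (n + 1) = 1 → α x ^ p ^ n = β →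
      (∀ g, β g = g → ∃ c : K, ρ g = c • 1) → ρ (a⁻¹ * β a) * ρ b = ζ • (ρ b * ρ (a⁻¹ * β a)) →
      (∀ i y, ρ (f i) * ρ y = χ i y • (ρ y * ρ (f i))) → (τ x - 1) ^ r = 0 →
      p ^ (n + 1) ≤ r ∨ Fintype.card ι ≤ r ^ 2 := by
  induction n using Nat.strong_induction_on with | _ n ih => ?_
  intro S _ _ V _ _ _ _ ρ τ α x r hc hx hxβ hf h0 h0' hr
  obtain ⟨U, -, hU, h1, h2, hI⟩ := exists_sub (ρ := ρ) (τ := τ.comp (zpowers x).subtype) (W := ⊤) top_ne_bot
    (fun _ _ _ => trivial) fun _ _ _ => trivial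
  haveI := Submodule.nontrivial_iff_ne_bot.2 hU
  set ρ' := Representation.subrepresentation ρ U h1
  set τ' := Representation.subrepresentation (τ.comp (zpowers x).subtype) U h2
  let α' := α.comp (zpowers x).subtype
  let y : zpowers x := ⟨x, mem_zpowers x⟩
  have hy : y ^ p ^ (n + 1) = 1 := Subtype.ext hx
  have hc' : ∀ s g, τ' s * ρ' g = ρ' (α' s g) * τ' s := fun s g =>
    LinearMap.ext fun u => Subtype.ext (LinearMap.congr_fun (hc s g) u)
  have hf' : ∀ g, β g = g → ∃ c : K, ρ' g = c • 1 := fun g hg => by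
    obtain ⟨c, e⟩ := hf g hg
    exact ⟨c, LinearMap.ext fun u => Subtype.ext (LinearMap.congr_fun e u)⟩
  have k0 : ρ' (a⁻¹ * β a) * ρ' b = ζ • (ρ' b * ρ' (a⁻¹ * β a)) :=
    LinearMap.ext fun u => Subtype.ext (LinearMap.congr_fun h0 u)
  have k0' : ∀ i y, ρ' (f i) * ρ' y = χ i y • (ρ' y * ρ' (f i)) := fun i y =>
    LinearMap.ext fun u => Subtype.ext (LinearMap.congr_fun (h0' i y) u)
  have hr' : (τ' y - 1) ^ r = 0 := res_pow (h2 y) hr
  have hyp : ∀ s : zpowers x, ∃ i : ℕ, y ^ i = s := fun s => by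
    obtain ⟨i, hi⟩ := mem_powers_iff_mem_zpowers.2 s.2
    exact ⟨i, Subtype.ext hi⟩
  rcases dich (p := p) (fun s => by
      obtain ⟨i, rfl⟩ := hyp s
      exact ⟨n + 1, by rw [← pow_mul, mul_comm, pow_mul, hy, one_pow]⟩) hc'
    (fun c h h' => hI.schur (by rintro (_ | _); exacts [h _, h' _])) with hS | ⟨c, l, ⟨s, hs⟩, hl⟩
  · obtain ⟨h3, h5⟩ := crit hQ hS (α := α x) (n := n) (by rw [← map_pow, hx, map_one])
      (by rw [← map_pow, hy, map_one]) (hc' y) (hxβ ▸ hf') (fun e => by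
        have := hc' (y ^ p ^ n) a
        rw [map_pow, e, one_pow, one_mul, mul_one, map_pow] at this
        rw [map_mul, ← hxβ] at k0
        erw [← this] at k0
        rw [← map_mul, inv_mul_cancel, map_one, one_mul, mul_one] at k0
        exact hζ (smul_left_injective K ((Group.isUnit b).map ρ').ne_zero (k0.symm.trans (one_smul K _).symm))) hr'
    exact h3.eq_or_lt.symm.imp Nat.le_of_lt_succ fun e => h5 (Eq.symm e) ▸ card_le_sq ρ' hχ k0'
  have hly : l y ≠ 0 := fun e => hs (by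
    obtain ⟨i, rfl⟩ := hyp s
    have h3 : Commute (τ' y) c := by rw [Commute, SemiconjBy, hl, e, zero_smul, add_zero]
    have h4 := hl (y ^ i)
    rw [map_pow, (h3.pow_left i).eq, left_eq_add, smul_eq_zero, ← map_pow] at h4
    exact h4.resolve_right ((Group.isUnit _).map τ').ne_zero)
  obtain ⟨r', h3, h4, h5⟩ := exists_div (p := p) ((Group.isUnit y).map τ') hly (hl y) hr'
  rcases n with _ | n
  · exact .inl (by rw [zero_add, pow_one]; exact (Nat.le_mul_of_pos_right p h3).trans h4)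
  refine (ih n n.lt_succ_self _ U ρ' τ' α' (y ^ p) r' hc' (by rw [← pow_mul, ← pow_succ', hy])
    (by rw [map_pow, ← pow_mul, ← pow_succ', ← hxβ]; rfl) hf' k0 k0' (by rwa [map_pow])).imp (fun h => ?_) fun h => ?_
  · rw [pow_succ']; exact (Nat.mul_le_mul_left p h).trans h4
  · exact h.trans (Nat.pow_le_pow_left ((Nat.le_mul_of_pos_left r' hp.1.pos).trans h4) 2)

omit [CharP K p] in
/-- Two quadratic elements of a `p`-group commute in coprime characteristic. -/
theorem comm_of_quad [IsAlgClosed K] (hp2 : p ≠ 2) {P : Type u} [Group P] [Finite P] (hP : IsPGroup p P)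
    (h0 : (p : K) ≠ 0) {X : Type v} [AddCommGroup X] [Module K X] [FiniteDimensional K X] (σ : P →* End K X)
    {a b c d : P} (hc : c ∈ center P) (hd : d ∈ center P) (ha : (σ a - 1) * (σ a - σ c) = 0)
    (hb : (σ b - 1) * (σ b - σ d) = 0) : σ a * σ b = σ b * σ a := by
  by_contra hne
  let R := closure ({a, b} : Set P)
  let a' : R := ⟨a, subset_closure (by simp)⟩
  let b' : R := ⟨b, subset_closure (by simp)⟩
  obtain ⟨W, hW, -, h1, h2⟩ := exists_nofix (ρ := (σ.comp R.subtype).comp (commutator R).subtype)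
    (τ := σ.comp (R ⊔ center P).subtype) (α := (MulAut.characteristic (commutator R)).comp (R.normalizerMonoidHom.comp
      (inclusion (sup_le le_normalizer (center_le_normalizer _))))) (by
      obtain ⟨k, hk⟩ := ((hP.to_subgroup R).to_subgroup (commutator R)).exists_card_eq
      rw [hk, Nat.cast_pow]; exact pow_ne_zero _ h0)
    (fun s g => (σ.map_mul _ _).symm.trans ((congrArg σ (inv_mul_cancel_right _ _).symm).trans (σ.map_mul _ _)))
    ⟨⟨⁅a', b'⁆, commutator_mem_commutator trivial trivial⟩, fun e => hne (by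
      rw [← map_mul, show a * b = ⁅a, b⁆ * (b * a) by rw [commutatorElement_def]; group, map_mul,
        show σ ⁅a, b⁆ = 1 from e, one_mul, map_mul])⟩
  obtain ⟨U, hUW, hU, h3, hI⟩ := exists_irr (σ.comp (R ⊔ center P).subtype) hW h1
  haveI := Submodule.nontrivial_iff_ne_bot.2 hU
  let σ' := Representation.subrepresentation (σ.comp (R ⊔ center P).subtype) U h3
  replace hI : Irr σ' := hI
  obtain ⟨m, hm⟩ := qpow _ _ rfl (hP.to_subgroup _) U σ' hI
  have hz : ∀ z : ↥(R ⊔ center P), (z : P) ∈ center P → ∃ l : K, σ' z = l • 1 := fun z hz => hI.schur fun s => by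
    rw [← map_mul, ← map_mul]; exact congrArg σ' (Subtype.ext (mem_center_iff.1 hz s))
  obtain ⟨l, hl⟩ := hz ⟨c, mem_sup_right hc⟩ hc
  obtain ⟨l', hl'⟩ := hz ⟨d, mem_sup_right hd⟩ hd
  set A := σ' ⟨a, mem_sup_left a'.2⟩ with hA
  set B := σ' ⟨b, mem_sup_left b'.2⟩ with hB
  have eA : (A - 1) * (A - l • 1) = 0 := hl ▸ LinearMap.ext fun u => Subtype.ext (LinearMap.congr_fun ha u)
  have eB : (B - 1) * (B - l' • 1) = 0 := hl' ▸ LinearMap.ext fun u => Subtype.ext (LinearMap.congr_fun hb u)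
  obtain ⟨v, hv, x, y, e1, e2⟩ : ∃ v : U, v ≠ 0 ∧ ∃ x y : K, A v = x • v ∧ A (B v) = y • v + l • B v := by
    by_cases e : ker (A - 1) = ⊥
    · obtain ⟨v, hv⟩ := exists_ne (0 : U)
      have : ∀ w, A w = l • w := fun w => sub_eq_zero.1 (ker_eq_bot'.1 e _ (LinearMap.congr_fun eA w))
      exact ⟨v, hv, l, 0, this v, by rw [this, zero_smul, zero_add]⟩
    · haveI := Submodule.nontrivial_iff_ne_bot.2 e
      obtain ⟨y, hy⟩ := End.exists_eigenvalue (K := K) (((A - l • 1) * B).restrict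
        (p := ker (A - 1)) (q := ker (A - 1)) fun w _ => mem_ker.2 (LinearMap.congr_fun eA (B w)))
      obtain ⟨v, hv, hv0⟩ := hy.exists_hasEigenvector
      refine ⟨v, fun e => hv0 (Subtype.ext e), 1, y, by rw [one_smul]; exact sub_eq_zero.1 v.2, ?_⟩
      exact sub_eq_iff_eq_add.1 (congrArg Subtype.val (End.mem_eigenspace_iff.1 hv))
  have m1 : v ∈ Submodule.span K {v, B v} := Submodule.subset_span (by simp)
  have m2 : B v ∈ Submodule.span K {v, B v} := Submodule.subset_span (by simp)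
  let M₀ : Submonoid ↥(R ⊔ center P) :=
    { carrier := {s | Submodule.span K {v, B v} ≤ (Submodule.span K {v, B v}).comap (σ' s)}
      one_mem' := fun w hw => by simpa using hw
      mul_mem' := fun hs ht w hw => by rw [Submodule.mem_comap, map_mul]; exact hs (ht hw) }
  let M : Subgroup ↥(R ⊔ center P) :=
    { M₀ with
      inv_mem' := fun {s} hs => by
        rw [← mul_one s⁻¹, ← pow_orderOf_eq_one s, ← Nat.sub_add_cancel (orderOf_pos s), pow_succ',
          inv_mul_cancel_left]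
        exact M₀.pow_mem hs _ }
  have hM : R ⊔ center P ≤ M.map (R ⊔ center P).subtype := by
    refine sup_le ((closure_le _).2 ?_) fun z h => ⟨⟨z, mem_sup_right h⟩, fun w hw => ?_, rfl⟩
    · rintro _ (rfl | rfl)
      · refine ⟨⟨_, mem_sup_left a'.2⟩, Submodule.span_le.2 ?_, rfl⟩
        rintro _ (rfl | rfl)
        · exact (show A _ ∈ _ from e1 ▸ Submodule.smul_mem _ _ m1)
        · exact (show A _ ∈ _ from e2 ▸ add_mem (Submodule.smul_mem _ _ m1) (Submodule.smul_mem _ _ m2))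
      · refine ⟨⟨_, mem_sup_left b'.2⟩, Submodule.span_le.2 ?_, rfl⟩
        rintro _ (rfl | rfl)
        · exact m2
        · have := LinearMap.congr_fun eB v
          simp only [End.mul_apply, LinearMap.sub_apply, LinearMap.smul_apply, End.one_apply, map_sub, map_smul,
            LinearMap.zero_apply, sub_eq_zero, sub_eq_iff_eq_add] at this
          show B (B v) ∈ Submodule.span K {v, B v}
          rw [this]
          exact add_mem (add_mem (zero_mem _) (Submodule.smul_mem _ _ (sub_mem m2 m1))) m2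
    · obtain ⟨t, ht⟩ := hz ⟨z, mem_sup_right h⟩ h
      rw [Submodule.mem_comap, ht]; exact Submodule.smul_mem _ t hw
  have h4 := (hI (Submodule.span K {v, B v}) fun s w hw => by
    obtain ⟨s', hs', e⟩ := hM s.2
    exact (Subtype.ext e : s' = s) ▸ hs' hw).resolve_left fun e => hv (e.le m1)
  have h5 : finrank K U ≤ 2 := by
    classical
    rw [← finrank_top, ← h4, ← Finset.coe_pair]
    exact (finrank_span_finset_le_card _).trans Finset.card_le_two
  obtain rfl : m = 0 := by
    by_contra e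
    have := Nat.le_self_pow e p
    have := hp.1.two_le
    omega
  obtain ⟨w, hw⟩ := finrank_eq_one_iff'.1 hm
  have h6 : ∀ s t, σ' s * σ' t = σ' t * σ' s := fun s t => LinearMap.ext fun u => by
    obtain ⟨k, rfl⟩ := hw.2 u
    obtain ⟨x, hx⟩ := hw.2 (σ' s w)
    obtain ⟨y, hy⟩ := hw.2 (σ' t w)
    simp only [End.mul_apply, map_smul, ← hx, ← hy, smul_smul, mul_comm]
  have h7 : commutator R ≤ (σ'.comp (inclusion le_sup_left)).ker := commutator_le.2 fun s _ t _ => by
    rw [MonoidHom.mem_ker, commutatorElement_def, map_mul, map_mul, map_mul]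
    erw [h6 _ (inclusion _ t)]
    rw [← MonoidHom.comp_apply, ← MonoidHom.comp_apply, ← map_mul, ← map_mul, ← map_mul]; simp
  exact hv (Subtype.ext (h2 v (hUW v.2) fun g => congrArg Subtype.val (LinearMap.congr_fun (h7 g.2) v)))

/-- Restriction of an action to an invariant subgroup. -/
def resAut {S Q : Type*} [Group S] [Group Q] (α : S →* MulAut Q) (N : Subgroup Q) (h : ∀ s, ∀ a ∈ N, α s a ∈ N) :
    S →* MulAut N where
  toFun s :=
    { toFun := fun a => ⟨α s a, h s a a.2⟩
      invFun := fun a => ⟨α s⁻¹ a, h _ a a.2⟩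
      left_inv := fun a => Subtype.ext (by simp)
      right_inv := fun a => Subtype.ext (by simp)
      map_mul' := fun a b => Subtype.ext (map_mul (α s) _ _) }
  map_one' := MulEquiv.ext fun a => Subtype.ext (by simp)
  map_mul' s t := MulEquiv.ext fun a => Subtype.ext (by simp)

theorem eq_one_of_pow {t : K} (h : t ^ p = 1) : t = 1 :=
  sub_eq_zero.1 (pow_eq_zero_iff hp.1.ne_zero |>.1 (by rw [sub_pow_char, h, one_pow, sub_self]))

omit [CharP K p] in
theorem fix_of_pow {S W : Type*} [Group S] [AddCommGroup W] [Module K W] (σ : S →* End K W) {c : S}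
    (hc : c ^ p = 1) {j : ℕ} (h0 : 0 < j) (hj : j < p) {w : W} (h : σ (c ^ j) w = w) : σ c w = w := by
  obtain ⟨k, -, hk⟩ := Nat.exists_mul_mod_eq_one_of_coprime (Nat.coprime_comm.1
    ((Nat.coprime_of_lt_prime h0.ne' hj hp.1))) hp.1.one_lt
  have : ∀ i, σ (c ^ (j * i)) w = w := fun i => by
    induction i with
    | zero => simp
    | succ i ih => rw [mul_add, mul_one, pow_add, map_mul, End.mul_apply, h, ih]
  have := this k
  rwa [← Nat.div_add_mod (j * k) p, hk, pow_add, pow_mul, hc, one_pow, one_mul, pow_one] at this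

/-- A top power is quadratic on the symplectic section. -/
theorem quad [IsAlgClosed K] {Q : Type*} [Group Q] [Finite Q] (hQ : (Nat.card Q : K) ≠ 0) {S : Type u} [Group S]
    [Finite S] {V : Type v} [AddCommGroup V] [Module K V] [FiniteDimensional K V] [Nontrivial V] {ρ : Q →* End K V}
    {τ : S →* End K V} {α : S →* MulAut Q} (hc : ∀ s g, τ s * ρ g = ρ (α s g) * τ s)
    (hS : ∀ c : End K V, (∀ g, ρ g * c = c * ρ g) → ∃ a : K, c = a • 1)
    (hsc : ∀ a b, ∃ t : K, ρ a * ρ b = t • (ρ b * ρ a)) {F W : Type*} [Field F] [AddCommGroup W] [Module F W]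
    (hF : (p : F) ≠ 0) {ψ : Q → W} {σ : S →* End F W} (h1 : ∀ a b, ψ (a * b) = ψ a + ψ b)
    (h2 : ∀ a, ψ a = 0 ↔ ∃ t : K, ρ a = t • 1) (h3 : ∀ w, ∃ a, ψ a = w) (h4 : ∀ s a, σ s (ψ a) = ψ (α s a))
    {c : S} (hcc : c ∈ center S) (hcp : c ^ p = 1) (hcf : ∀ w, σ c w = w → w = 0) {g : S} {n : ℕ}
    (hg : g ^ p ^ (n + 1) = 1) (hr : (τ g - 1) ^ (p ^ (n + 1) - 1) = 0) :
    ∃ d ∈ center S, (σ (g ^ p ^ n) - 1) * (σ (g ^ p ^ n) - σ d) = 0 := by
  classical
  set z := g ^ p ^ n with hz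
  have hzp : z ^ p = 1 := by rw [hz, ← pow_mul, ← pow_succ, hg]
  have hE : ∀ y : S, y ^ p = 1 → σ y * ∑ i ∈ Finset.range p, σ (y ^ i) = ∑ i ∈ Finset.range p, σ (y ^ i) :=
    fun y hy => by
      simp only [map_pow]
      rw [← sub_eq_zero, ← sub_one_mul, mul_geom_sum, ← map_pow, hy, map_one, sub_self]
  have hcm : ∀ y i, Commute y (c ^ i) := fun y i => (show Commute y c from mem_center_iff.1 hcc y).pow_right i
  have hcf' : ∀ j, 0 < j → j < p → ∀ w, σ (c ^ j) w = w → w = 0 := fun j h0 hj w h =>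
    hcf w (fix_of_pow σ hcp h0 hj h)
  have hy : ∀ j, (z * c ^ j) ^ p = 1 := fun j => by
    rw [(hcm z j).mul_pow, hzp, ← pow_mul, mul_comm j, pow_mul, hcp, one_pow, one_mul]
  have hsum : ∑ j ∈ Finset.range p, ∑ i ∈ Finset.range p, σ ((z * c ^ j) ^ i) = (p : F) • 1 := by
    rw [Finset.sum_comm, Finset.sum_eq_single 0 (fun i hi h0 => ?_) (by simp [hp.1.ne_zero])]
    · simp [Nat.cast_smul_eq_nsmul]
    · simp only [(hcm z _).mul_pow, map_mul, ← Finset.mul_sum, ← pow_mul, mul_comm _ i]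
      simp only [pow_mul]
      refine mul_eq_zero_of_right _ (LinearMap.ext fun w => hcf' i (Nat.pos_of_ne_zero h0) (Finset.mem_range.1 hi) _
        (LinearMap.congr_fun (hE _ (by rw [← pow_mul, mul_comm, pow_mul, hcp, one_pow])) w))
  have key : ∀ i j, 0 < i → i < j → j < p → ∀ w w', w ≠ 0 → w' ≠ 0 → σ (z * c ^ i) w = w → σ (z * c ^ j) w' = w' →
      False := by
    intro i j hi hij hj w w' hw hw' ew ew'
    have hu : ∀ g, IsUnit (ρ g) := fun g => (Group.isUnit g).map ρ
    choose β hβ using hsc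
    choose sec hs using h3
    have uniq : ∀ a b t, ρ a * ρ b = t • (ρ b * ρ a) → β a b = t := fun a b t h =>
      smul_left_injective K ((hu b).mul (hu a)).ne_zero ((hβ a b).symm.trans h)
    have βr : ∀ a b b', β a (b * b') = β a b * β a b' := fun a b b' => uniq _ _ _ (by
      rw [map_mul, ← mul_assoc, hβ a b, smul_mul_assoc, mul_assoc, hβ a b', mul_smul_comm, smul_smul, mul_assoc])
    have βl : ∀ a a' b, β (a * a') b = β a b * β a' b := fun a a' b => uniq _ _ _ (by
      rw [map_mul, mul_assoc, hβ a' b, mul_smul_comm, ← mul_assoc, hβ a b, smul_mul_assoc, smul_smul, mul_comm (β a b),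
        mul_assoc])
    have ψ1 : ψ 1 = 0 := (h2 1).2 ⟨1, by simp⟩
    have ψi : ∀ a, ψ a⁻¹ = -ψ a := fun a => eq_neg_of_add_eq_zero_left (by rw [← h1, inv_mul_cancel, ψ1])
    have β0 : ∀ a b, ψ a = 0 → β a b = 1 ∧ β b a = 1 := fun a b h => by
      obtain ⟨t, ht⟩ := (h2 a).1 h
      exact ⟨uniq _ _ _ (by simp [ht]), uniq _ _ _ (by simp [ht])⟩
    have βc : ∀ a a' b, ψ a = ψ a' → β a b = β a' b ∧ β b a = β b a' := fun a a' b h => by
      have := β0 (a⁻¹ * a') b (by rw [h1, ψi, h, neg_add_cancel])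
      constructor
      · rw [← mul_one (β a b), ← this.1, ← βl, mul_inv_cancel_left]
      · rw [← mul_one (β b a), ← this.2, ← βr, mul_inv_cancel_left]
    have βα : ∀ s a b, β (α s a) (α s b) = β a b := fun s a b => uniq _ _ _ (by
      rw [← ((Group.isUnit s).map τ).mul_left_inj, mul_assoc, ← hc, ← mul_assoc, ← hc, mul_assoc, hβ a b,
        mul_smul_comm, smul_mul_assoc, ← mul_assoc, hc, mul_assoc, hc, mul_assoc])
    set e := ∑ i ∈ Finset.range p, σ (z ^ i) with he
    have ez : ∀ u, σ z u = u → e u = (p : F) • u := fun u hu => by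
      have : ∀ i, σ (z ^ i) u = u := fun i => by
        induction i with
        | zero => simp
        | succ i ih => rw [pow_succ, map_mul, End.mul_apply, hu, ih]
      simp [he, LinearMap.sum_apply, this, Nat.cast_smul_eq_nsmul, -map_pow]
    have ec : ∀ s, Commute s z → ∀ u, e (σ s u) = σ s (e u) := fun s hs u => by
      simp only [he, LinearMap.sum_apply, map_sum, ← End.mul_apply, ← map_mul, (hs.pow_right _).eq]
    have e1 : ∀ u, σ z (e u) = e u := fun u => LinearMap.congr_fun (hE z hzp) u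
    let N : Subgroup Q :=
      { carrier := {a | e (ψ a) = 0}
        one_mem' := by simp [ψ1]
        mul_mem' := fun {a b} ha hb => by
          rw [Set.mem_ofPred_eq, h1, map_add, show e (ψ a) = 0 from ha, show e (ψ b) = 0 from hb, add_zero]
        inv_mem' := fun {a} ha => by rw [Set.mem_ofPred_eq, ψi, map_neg, show e (ψ a) = 0 from ha, neg_zero] }
    have orth : ∀ a ∈ N, ∀ u, σ z (ψ u) = ψ u → β a u = 1 := fun a ha u hu => by
      have k1 : ∀ i, β (sec (σ (z ^ i) (ψ a))) u = β a u := fun i => by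
        induction i with
        | zero => exact (βc _ _ _ (by simp [hs])).1
        | succ i ih =>
          rw [← ih, ← βα z (sec (σ (z ^ i) (ψ a))) u, (βc (α z u) u _ (by rw [← h4, hu])).2]
          exact (βc _ _ _ (by rw [← h4, hs, hs, pow_succ', map_mul, End.mul_apply])).1
      have k2 : ∀ k, β (sec ((∑ i ∈ Finset.range k, σ (z ^ i)) (ψ a))) u = β a u ^ k := fun k => by
        induction k with
        | zero => simpa using (β0 _ _ (by simp [hs])).1
        | succ k ih =>
          rw [pow_succ, ← ih, ← k1 k, ← βl]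
          exact (βc _ _ _ (by rw [h1, hs, hs, hs, Finset.sum_range_succ, LinearMap.add_apply])).1
      exact eq_one_of_pow (p := p) ((k2 p).symm.trans (β0 _ _ ((hs _).trans ha)).1)
    have nd : ∀ a ∈ N, (∀ b ∈ N, β a b = 1) → ψ a = 0 := fun a ha h => (h2 a).2 (hS _ fun b => by
      have k1 : β a (sec ((p : F)⁻¹ • e (ψ b)) * sec (ψ b - (p : F)⁻¹ • e (ψ b))) = 1 := by
        rw [βr, orth a ha _ (by rw [hs, map_smul, e1]), h _ (show e _ = 0 by
          rw [hs, map_sub, map_smul, ez _ (e1 _), inv_smul_smul₀ hF, sub_self]), one_mul]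
      rw [(βc _ b a (by rw [h1, hs, hs, add_sub_cancel])).2] at k1
      rw [hβ a b, k1, one_smul])
    have hgz : ∀ k, Commute (g ^ k) z := fun k => ((Commute.refl g).pow_pow _ _)
    have inv : ∀ j u, σ (z * c ^ j) u = u → ∀ k, σ (z * c ^ j) (σ (g ^ k) u) = σ (g ^ k) u := fun j u hu k => by
      rw [← End.mul_apply, ← map_mul, ← ((hgz k).mul_right (hcm _ j)).eq, map_mul, End.mul_apply, hu]
    have mem : ∀ j, 0 < j → j < p → ∀ u, σ (z * c ^ j) u = u → e u = 0 := fun j h0 hj u hu => hcf' j h0 hj _ (by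
      conv_rhs => rw [← hu, map_mul, End.mul_apply, ec z (Commute.refl z), e1, ec _ (hcm z j).symm])
    have nf : ∀ j, 0 < j → j < p → ∀ u, σ (z * c ^ j) u = u → σ z u = u → u = 0 := fun j h0 hj u hu hu' =>
      hcf' j h0 hj _ (by rwa [(hcm z j).eq, map_mul, End.mul_apply, hu'] at hu)
    have free : ∀ j, 0 < j → j < p → ∀ u ≠ 0, σ (z * c ^ j) u = u → ∀ k l : Fin (p ^ (n + 1)),
        σ (g ^ k.1) u = σ (g ^ l.1) u → k = l := fun j h0 hj u hu0 hu k l h => by
      have k1 : Function.minimalPeriod (σ g) u = p ^ (n + 1) := Function.minimalPeriod_eq_prime_pow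
        (fun h => hu0 (nf j h0 hj u hu (by rw [hz, map_pow, End.pow_apply]; exact h)))
        (show (σ g)^[_] u = u by rw [← End.pow_apply, ← map_pow, hg, map_one, End.one_apply])
      rw [map_pow, map_pow, End.pow_apply, End.pow_apply] at h
      exact Fin.ext (Function.iterate_injOn_Iio_minimalPeriod (f := σ g) (k.2.trans_eq k1.symm) (l.2.trans_eq k1.symm) h)
    let f : Fin (p ^ (n + 1)) × Fin (p ^ (n + 1)) → N := fun x =>
      ⟨sec (σ (g ^ x.1.1) w + σ (g ^ x.2.1) w'), show e _ = 0 by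
        rw [hs, map_add, mem i hi (hij.trans hj) _ (inv i w ew _), mem j (hi.trans hij) hj _ (inv j w' ew' _), add_zero]⟩
    let χ : Fin (p ^ (n + 1)) × Fin (p ^ (n + 1)) → N →* K := fun x =>
      { toFun := fun y => β (f x) y
        map_one' := (β0 _ _ ψ1).2
        map_mul' := fun a b => βr _ _ _ }
    have hχ : Function.Injective χ := fun x y h => by
      have k1 := nd _ (mul_mem (inv_mem (f x).2) (f y).2) fun b hb => by
        rw [βl, ← show β (f x) b = β (f y) b from DFunLike.congr_fun h ⟨b, hb⟩, ← βl, inv_mul_cancel, (β0 _ _ ψ1).1]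
      rw [h1, ψi, hs, hs, neg_add_eq_zero] at k1
      have k2 : σ (g ^ x.1.1) w - σ (g ^ y.1.1) w = σ (g ^ y.2.1) w' - σ (g ^ x.2.1) w' :=
        sub_eq_sub_iff_add_eq_add.2 (k1.trans (add_comm _ _))
      have k3 := map_sub (σ (z * c ^ i)) (σ (g ^ x.1.1) w) (σ (g ^ y.1.1) w)
      have k4 := map_sub (σ (z * c ^ j)) (σ (g ^ y.2.1) w') (σ (g ^ x.2.1) w')
      rw [inv i w ew, inv i w ew] at k3
      rw [inv j w' ew', inv j w' ew'] at k4
      have k5 := hcf' (j - i) (by omega) (by omega) (σ (g ^ x.1.1) w - σ (g ^ y.1.1) w) (by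
        rw [← k2, show z * c ^ j = c ^ (j - i) * (z * c ^ i) by
          rw [← mul_assoc, ← (hcm z _).eq, mul_assoc, ← pow_add, Nat.sub_add_cancel hij.le], map_mul, End.mul_apply,
          k3] at k4
        exact k4)
      exact Prod.ext (free i hi (hij.trans hj) w hw ew _ _ (sub_eq_zero.1 k5))
        (free j (hi.trans hij) hj w' hw' ew' _ _ (sub_eq_zero.1 (k2 ▸ k5)).symm)
    have hN : ∀ s : zpowers g, ∀ a ∈ N, (α.comp (zpowers g).subtype) s a ∈ N := by
      rintro ⟨_, k, rfl⟩ a ha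
      show e (ψ (α (g ^ k) a)) = 0
      rw [← h4, ec _ (((Commute.refl g).zpow_left k).pow_right _), show e (ψ a) = 0 from ha, map_zero]
    let a : N := ⟨sec w, show e _ = 0 by rw [hs, mem i hi (hij.trans hj) w ew]⟩
    have hb : ∀ x : N, ((resAut _ N hN ⟨g, mem_zpowers g⟩ ^ p ^ n) x : Q) = α z x := fun x => by
      rw [← map_pow]; rfl
    obtain ⟨b, hbN, hb'⟩ : ∃ b ∈ N, β (a⁻¹ * (resAut _ N hN ⟨g, mem_zpowers g⟩ ^ p ^ n) a : N) b ≠ 1 := by
      by_contra! h
      have := nd _ (SetLike.coe_mem _) h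
      rw [Subgroup.coe_mul, Subgroup.coe_inv, h1, ψi, hb, ← h4, hs, neg_add_eq_zero] at this
      exact hw (nf i hi (hij.trans hj) w ew this.symm)
    have := coreD (p := p) (Q := N) (fun h => hQ (by
        obtain ⟨k, hk⟩ := card_subgroup_dvd_card N
        rw [hk, Nat.cast_mul, h, zero_mul])) (f := f) hχ (a := a) (b := ⟨b, hbN⟩) hb' n (zpowers g) V (ρ.comp N.subtype)
      (τ.comp (zpowers g).subtype) (resAut _ N hN) ⟨g, mem_zpowers g⟩ _ (fun s x => hc s x) (Subtype.ext hg) rfl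
      (fun x hx => (h2 x).1 ((smul_eq_zero_iff_right hF).1 ((ez _ (by
        rw [h4, ← hb, hx])).symm.trans x.2))) (hβ _ _) (fun x y => hβ (f x) y) hr
    have k1 := Nat.sub_lt (pow_pos hp.1.pos (n + 1)) one_pos
    refine this.elim k1.not_ge fun h => ?_
    rw [Fintype.card_prod, Fintype.card_fin, ← sq] at h
    exact (Nat.pow_lt_pow_left k1 two_ne_zero).not_ge h
  have hd : ∀ j, (σ z - σ (c ^ j)⁻¹) * ∑ i ∈ Finset.range p, σ ((z * c ^ j) ^ i) = 0 := fun j => by
    rw [sub_mul, sub_eq_zero]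
    conv_rhs => rw [← hE _ (hy j), ← mul_assoc, ← map_mul, (hcm z j).eq, inv_mul_cancel_left, ← (hcm z j).eq]
  obtain ⟨j, hj⟩ : ∃ j, ∀ i ∈ Finset.range p, i ≠ 0 → i ≠ j → ∑ k ∈ Finset.range p, σ ((z * c ^ i) ^ k) = 0 := by
    by_contra! h
    obtain ⟨i, hi, hi0, -, hi1⟩ := h 0
    obtain ⟨j, hj, hj0, hij, hj1⟩ := h i
    obtain ⟨w, hw⟩ := DFunLike.ne_iff.1 hi1
    obtain ⟨w', hw'⟩ := DFunLike.ne_iff.1 hj1
    have k1 := fun i w => LinearMap.congr_fun (hE _ (hy i)) w
    rcases lt_or_gt_of_ne hij with h | h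
    · exact key j i (Nat.pos_of_ne_zero hj0) h (Finset.mem_range.1 hi) _ _ hw' hw (k1 _ _) (k1 _ _)
    · exact key i j (Nat.pos_of_ne_zero hi0) h (Finset.mem_range.1 hj) _ _ hw hw' (k1 _ _) (k1 _ _)
  refine ⟨(c ^ j)⁻¹, inv_mem (pow_mem hcc j), (smul_eq_zero_iff_right hF).1 ?_⟩
  rw [← mul_one (_ * _), ← mul_smul_comm, ← hsum, Finset.mul_sum]
  refine Finset.sum_eq_zero fun i hi => ?_
  rcases eq_or_ne i j with rfl | e
  · rw [mul_assoc, hd, mul_zero]
  rcases eq_or_ne i 0 with rfl | e'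
  · have := hd 0
    rw [pow_zero, inv_one, map_one] at this
    rw [show (σ z - 1) * (σ z - σ (c ^ j)⁻¹) = (σ z - σ (c ^ j)⁻¹) * (σ z - 1) from
      (((Commute.refl _).sub_right ((hcm z j).inv_right.map σ)).sub_left (Commute.one_left _)).eq, mul_assoc, pow_zero,
      this, mul_zero]
  · rw [hj i hi e' e, mul_zero]

end Cfsg.Lib.HH.Ferm
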