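import Cfsg.Agent.Lib.HH.Ferm
import Cfsg.Agent.Lib.HH.Frame

/-!
# The Hall–Higman bound `l ≤ 2 e` for odd `p`
-/

set_option autoImplicit false

namespace Cfsg.Lib.HH.Ferm

open Module LinearMap Subgroup Cfsg.Lib.BG Cfsg.Lib.HH.ModB
open scoped commutatorElement

universe u v

theorem exists_coord {q : ℕ} [Fact q.Prime] {Q S : Type*} [Group Q] [Finite Q] [Group S] [Finite S]
    (α : S →* MulAut Q) (Z : Subgroup Q) (hc : ∀ a b : Q, ⁅a, b⁆ ∈ Z) (hq : ∀ a, a ^ q ∈ Z)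
    (hα : ∀ s, ∀ a ∈ Z, α s a ∈ Z) : ∃ (n : ℕ) (ψ : Q → Fin n → ZMod q) (σ : S →* End (ZMod q) (Fin n → ZMod q)),
      (∀ a b, ψ (a * b) = ψ a + ψ b) ∧ (∀ a, ψ a = 0 ↔ a ∈ Z) ∧ (∀ w, ∃ a, ψ a = w) ∧
      ∀ s a, σ s (ψ a) = ψ (α s a) := by
  have : Finite (Q ⋊[α] S) := Finite.of_equiv _ SemidirectProduct.equivProd.symm
  have e : ∀ s a, (SemidirectProduct.inr s * SemidirectProduct.inl a * (SemidirectProduct.inr s)⁻¹ : Q ⋊[α] S) =
      SemidirectProduct.inl (α s a) := fun s a => by rw [SemidirectProduct.inl_aut, map_inv]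
  have k : ∀ N : Subgroup Q, (∀ s, ∀ a ∈ N, α s a ∈ N) → ∀ s, (SemidirectProduct.inr s : Q ⋊[α] S) ∈
      𝐍(N.map SemidirectProduct.inl) := fun N h s => mem_normalizer_fintype (by
    rintro _ ⟨a, ha, rfl⟩
    exact ⟨_, h s a ha, (e s a).symm⟩)
  obtain ⟨n, ψ, σ, h1, h2, h3, h4⟩ := Two.exists_sec (q := q) (G := Q ⋊[α] S) (S := Z.map SemidirectProduct.inl)
    (V := (⊤ : Subgroup Q).map SemidirectProduct.inl) (map_mono le_top)
    (by rw [← map_commutator]; exact map_mono (commutator_le.2 fun a _ b _ => hc a b))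
    (by rintro _ ⟨a, -, rfl⟩; exact ⟨_, hq a, map_pow _ _ _⟩) SemidirectProduct.inr (k Z hα) (k ⊤ fun _ _ _ => trivial)
  have m : ∀ a, (SemidirectProduct.inl a : Q ⋊[α] S) ∈ (⊤ : Subgroup Q).map SemidirectProduct.inl :=
    fun a => ⟨a, trivial, rfl⟩
  refine ⟨n, fun a => ψ (SemidirectProduct.inl a), σ, fun a b => by simp only [map_mul, h1 _ (m a) _ (m b)], fun a => ?_,
    fun w => ?_, fun s a => by rw [h4 _ _ (m a), e]⟩
  · rw [h2 _ (m a), mem_map_iff_mem SemidirectProduct.inl_injective]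
  · obtain ⟨_, ⟨a, -, rfl⟩, h⟩ := h3 w
    exact ⟨a, h⟩

variable {K : Type*} [Field K] (p : ℕ) [hp : Fact p.Prime]

/-- The top powers of the exceptional elements. -/
def Top {S V : Type*} [Group S] [AddCommGroup V] [Module K V] (τ : S →* End K V) : Set S :=
  {z | ∃ g n, g ^ p ^ (n + 1) = 1 ∧ (τ g - 1) ^ (p ^ (n + 1) - 1) = 0 ∧ g ^ p ^ n = z}

variable {p} [CharP K p]

theorem noc [IsAlgClosed K] (hp2 : p ≠ 2) {q : ℕ} [hq : Fact q.Prime] {Q : Type*} [Group Q] [Finite Q]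
    (hQ : IsPGroup q Q) (hqp : q ≠ p) (cl : ∀ a b : Q, ⁅a, b⁆ ∈ center Q) (pw : ∀ a : Q, a ^ q ∈ center Q)
    {β : MulAut Q} (hβ : ∀ N : Subgroup Q, (∀ g, g⁻¹ * β g ∈ N) → N = ⊤) (m : ℕ) :
    ∀ (S : Type u) [Group S] [Finite S] (V : Type v) [AddCommGroup V] [Module K V] [FiniteDimensional K V]
      [Nontrivial V] (ρ : Q →* End K V) (τ : S →* End K V) (α : S →* MulAut Q) (c : S), Nat.card S = m →
      IsPGroup p S → (∀ s g, τ s * ρ g = ρ (α s g) * τ s) → (∀ v, (∀ g, ρ g v = v) → v = 0) → c ∈ center S →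
      c ^ p = 1 → α c = β → c ∉ ⁅closure (Top p τ), closure (Top p τ)⁆ := by
  induction m using Nat.strong_induction_on with | _ m ih => ?_
  intro S _ _ V _ _ _ _ ρ τ α c hm hS hc h0 hcc hcp hcβ hT
  obtain ⟨U, -, hU, h1, h2, hI⟩ := exists_sub (ρ := ρ) (τ := τ) (W := ⊤) top_ne_bot
    (fun _ _ _ => trivial) fun _ _ _ => trivial
  haveI := Submodule.nontrivial_iff_ne_bot.2 hU
  set ρ' := Representation.subrepresentation ρ U h1
  set τ' := Representation.subrepresentation τ U h2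
  have hc' : ∀ s g, τ' s * ρ' g = ρ' (α s g) * τ' s := fun s g =>
    LinearMap.ext fun u => Subtype.ext (LinearMap.congr_fun (hc s g) u)
  have h0' : ∀ v, (∀ g, ρ' g v = v) → v = 0 := fun v hv => Subtype.ext (h0 v fun g => congrArg Subtype.val (hv g))
  have hT' : Top p τ ⊆ Top p τ' := fun z ⟨g, n, e1, e2, e3⟩ => ⟨g, n, e1, res_pow (h2 g) e2, e3⟩
  replace hT := commutator_mono (closure_mono hT') (closure_mono hT') hT
  have hu : ∀ s, IsUnit (τ' s) := fun s => (Group.isUnit s).map τ'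
  rcases dich hS hc' (fun c h h' => hI.schur (by rintro (_ | _); exacts [h _, h' _])) with
    hS' | ⟨e, l, ⟨s, hs⟩, hl⟩
  · let Z : Subgroup Q :=
      { carrier := {a | ∀ b, Commute (ρ' b) (ρ' a)}
        one_mem' := fun b => by simp
        mul_mem' := fun ha hb b => by rw [map_mul]; exact (ha b).mul_right (hb b)
        inv_mem' := fun {a} ha b => congrArg Units.val
          (show Commute (ρ'.toHomUnits b) (ρ'.toHomUnits a) from Units.ext (ha b)).inv_right }
    have hZ : center Q ≤ Z := fun a ha b => (show Commute b a from mem_center_iff.1 ha b).map ρ'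
    have hZ' : ∀ a, a ∈ Z ↔ ∃ t : K, ρ' a = t • 1 := fun a =>
      ⟨fun h => hS' _ h, fun ⟨t, h⟩ b => h ▸ (Commute.one_right _).smul_right t⟩
    have hα : ∀ s a (t : K), ρ' a = t • 1 → ρ' (α s a) = t • 1 := fun s a t h => by
      rw [← (hu s).mul_left_inj, ← hc', h, mul_smul_comm, smul_mul_assoc, one_mul, mul_one]
    obtain ⟨n, ψ, σ, k1, k2, k3, k4⟩ := exists_coord (q := q) α Z (fun a b => hZ (cl a b)) (fun a => hZ (pw a))
      fun s a ha => (hZ' _).2 (((hZ' a).1 ha).imp (hα s a))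
    have ψi : ∀ a, ψ a⁻¹ = -ψ a := fun a => eq_neg_of_add_eq_zero_left (by
      rw [← k1, inv_mul_cancel, k2]; exact one_mem _)
    have hF : (p : ZMod q) ≠ 0 := fun h =>
      hqp ((Nat.prime_dvd_prime_iff_eq hq.1 hp.1).1 ((ZMod.natCast_eq_zero_iff p q).1 h))
    have hcf : ∀ w, σ c w = w → w = 0 := fun w hw => by
      have : Function.Surjective (σ c - 1 : End (ZMod q) (Fin n → ZMod q)) := fun w => by
        obtain ⟨a, rfl⟩ := k3 w
        exact (hβ { carrier := {a | ψ a ∈ range (σ c - 1)}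
                    one_mem' := show ψ 1 ∈ range _ by rw [(k2 1).2 (one_mem _)]; exact zero_mem _
                    mul_mem' := fun {a b} ha hb => show ψ _ ∈ range _ by rw [k1]; exact add_mem ha hb
                    inv_mem' := fun {a} ha => show ψ _ ∈ range _ by rw [ψi]; exact neg_mem ha } fun g =>
          ⟨ψ g, by rw [k1, ψi, ← hcβ, ← k4, neg_add_eq_sub]; rfl⟩).ge (mem_top a)
      exact injective_iff_surjective.2 this ((sub_eq_zero.2 hw).trans (map_zero _).symm)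
    obtain ⟨K', _, _, _, W', _, _, _, φ, hφ⟩ := exists_closure (p := q) (ZMod q) (Fin n → ZMod q)
    have hq' : ∀ z ∈ Top p τ', ∃ d ∈ center S, ((φ.toMonoidHom.comp σ) z - 1) *
        ((φ.toMonoidHom.comp σ) z - (φ.toMonoidHom.comp σ) d) = 0 := by
      rintro _ ⟨g, n, e1, e2, rfl⟩
      obtain ⟨d, hd, e⟩ := quad (card_ne_zero hQ hqp) hc' hS' (fun a b => by
        obtain ⟨t, ht⟩ := (hZ' _).1 (hZ (cl a b))
        exact ⟨t, by rw [← map_mul, show a * b = ⁅a, b⁆ * (b * a) by rw [commutatorElement_def]; group, map_mul, ht,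
          smul_mul_assoc, one_mul, map_mul]⟩) hF k1 (fun a => (k2 a).trans (hZ' a)) k3 k4 hcc hcp hcf e1 e2
      exact ⟨d, hd, by simpa using congrArg φ e⟩
    have k5 : IsMulCommutative (closure (σ.toHomUnits '' Top p τ')) := isMulCommutative_closure (by
      rintro _ ⟨a, ha, rfl⟩ _ ⟨b, hb, rfl⟩
      obtain ⟨d, hd, e⟩ := hq' a ha
      obtain ⟨d', hd', e'⟩ := hq' b hb
      refine Units.ext (hφ ?_)
      simpa using comm_of_quad hp2 hS (fun h => hqp ((Nat.prime_dvd_prime_iff_eq hq.1 hp.1).1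
        ((CharP.cast_eq_zero_iff K' q p).1 h))) _ hd hd' e e')
    have k6 := mem_map_of_mem σ.toHomUnits hT
    rw [map_commutator, MonoidHom.map_closure, abelian_iff_der.1 k5, mem_bot] at k6
    have k7 : ∀ a, a ∈ Z := fun a => (k2 a).1 (hcf _ (by rw [show σ c = 1 from congrArg Units.val k6]; rfl))
    obtain ⟨v, hv⟩ := exists_ne (0 : U)
    refine hv (h0' v fun g => ?_)
    rw [show ρ' g = 1 from (hβ ρ'.ker fun g => ?_).ge trivial, End.one_apply]
    obtain ⟨t, ht⟩ := (hZ' g).1 (k7 g)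
    rw [MonoidHom.mem_ker, map_mul, ← hcβ, hα c g t ht, ← ht, ← map_mul, inv_mul_cancel, map_one]
  have hl' : ∀ s t, l (s * t) = l s + l t := fun s t => by
    have := hl (s * t)
    rw [map_mul, mul_assoc, hl t, mul_add, ← mul_assoc, hl s, add_mul, mul_assoc, add_assoc, add_right_inj,
      smul_mul_assoc, mul_smul_comm, ← add_smul] at this
    exact smul_left_injective K ((hu s).mul (hu t)).ne_zero this.symm
  let L : S →* Multiplicative K := MonoidHom.mk' (fun s => Multiplicative.ofAdd (l s)) fun s t => by rw [hl', ofAdd_add]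
  have hL : ∀ z ∈ Top p τ', z ∈ L.ker.subtype '' Top p (τ'.comp L.ker.subtype) := by
    rintro _ ⟨g, n, e1, e2, rfl⟩
    by_cases h : l g = 0
    · exact ⟨_, ⟨⟨g, congrArg Multiplicative.ofAdd h⟩, n, Subtype.ext e1, e2, rfl⟩, rfl⟩
    obtain ⟨r, h3, h4, h5⟩ := exists_div (p := p) (hu g) h (hl g) e2
    have h6 : r < p ^ n := Nat.lt_of_mul_lt_mul_left (a := p) (by
      rw [← pow_succ']; exact h4.trans_lt (Nat.sub_lt (pow_pos hp.1.pos _) one_pos))
    rcases n with _ | n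
    · rw [pow_zero] at h6; omega
    refine ⟨_, ⟨⟨g ^ p, ?_⟩, n, Subtype.ext ?_, ?_, rfl⟩, ?_⟩
    · rw [MonoidHom.mem_ker, map_pow]
      exact congrArg Multiplicative.ofAdd (show p • l g = 0 by simp)
    · exact (pow_mul g _ _).symm.trans (by rw [← pow_succ', e1]; rfl)
    · exact pow_eq_zero_of_le (Nat.le_sub_one_of_lt h6) (by rw [← map_pow] at h5; exact h5)
    · exact (pow_mul g _ _).symm.trans (by rw [← pow_succ'])
  replace hT := commutator_mono (closure_mono hL) (closure_mono hL) hT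
  rw [← MonoidHom.map_closure, ← map_commutator] at hT
  obtain ⟨c', hc1, rfl⟩ := hT
  refine ih _ (hm ▸ Core.card_lt_of_ne_top fun h => hs ?_) L.ker U ρ' (τ'.comp L.ker.subtype) (α.comp L.ker.subtype) c' rfl
    (hS.to_subgroup _) (fun s => hc' s) h0' (mem_center_iff.2 fun s => Subtype.ext (mem_center_iff.1 hcc s))
    (Subtype.ext hcp) hcβ hc1
  exact congrArg Multiplicative.toAdd (show L s = 1 from h.ge (mem_top s))

variable {G : Type u} [Group G] [Finite G]

omit [CharP K p] in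
theorem exists_Q' (hs : IsPSolvable p G) (h0 : pCore p G = ⊥) {A : Subgroup G} (hA : IsPGroup p A) {y : G}
    (hy : y ∈ A) (hy1 : y ≠ 1) (hAy : A ≤ 𝐂[y]) : ∃ (q : ℕ) (Q : Subgroup G) (h : A ≤ 𝐍(Q)), q.Prime ∧ q ≠ p ∧
      IsPGroup q Q ∧ Q ≠ ⊥ ∧ (∀ a b : Q, ⁅a, b⁆ ∈ center Q) ∧ (∀ a : Q, a ^ q ∈ center Q) ∧
      ∀ N : Subgroup Q, (∀ g, g⁻¹ * Q.normalizerMonoidHom ⟨y, h hy⟩ g ∈ N) → N = ⊤ := by
  obtain ⟨q, P, hn, hq, hqp, hPq, hP0, -, hP⟩ := exists_Q hs h0 hA hy hy1 hAy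
  haveI := Fact.mk hq
  have hB : zpowers y ≤ A := zpowers_le_of_mem hy
  have hAB : A ≤ 𝐍(zpowers y) := norm_of_cent (by rwa [zpowers_eq_closure, centralizer_closure])
  have h3 := IsPGroup.coprime_card_of_ne p q hqp.symm _ _ (hA.to_le hB) hPq
  have h2 : ¬ zpowers y ≤ 𝐂(P) := fun e => hP0 (eq_bot_iff.2 fun x hx => congrArg Subtype.val (mem_bot.1
    ((hP ⊥ fun g => mem_bot.2 (inv_mul_eq_one.2 (Subtype.ext (mul_inv_eq_iff_eq_mul.2
      (mem_cent.1 (e (mem_zpowers y)) g g.2).symm).symm))).ge (mem_top (⟨x, hx⟩ : P)))))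
  obtain ⟨Q, h4, h5, h6, h7, h8⟩ := exists_spec hPq hn hB hAB h3 h2
  have h9 := coprime_mono h3 le_rfl h4
  refine ⟨q, Q, h5, hq, hqp, hPq.to_le h4, fun e => h6 (by simp [e]), fun a b => mem_center_iff.2 fun g => ?_,
    fun a => mem_center_iff.2 fun g => ?_, fun N hN => ?_⟩
  · exact h8.elim (fun _ => mul_comm' _ _) fun h =>
      Subtype.ext ((h.der.le (commutator_mem_commutator a.2 b.2)).2 g g.2)
  · exact h8.elim (fun _ => mul_comm' _ _) fun h => Subtype.ext ((h.pow a a.2).2 g g.2)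
  have h10 : ⁅Q, zpowers y⁆ = Q := by_contra fun e => h6 (stable_factor_cent le_rfl (cent_symm
    (h7 _ ((comm_le_left (hB.trans h5)).lt_of_ne e) (norm_comm h5 hAB))) (coprime_mono h9 le_rfl
      (comm_le_left (hB.trans h5))))
  have h11 : ∀ (i : ℕ) (g : Q), g⁻¹ * (Q.normalizerMonoidHom ⟨y, h5 hy⟩ ^ i) g ∈ N := fun i g => by
    induction i with
    | zero => simp
    | succ i ih => simpa [pow_succ', mul_assoc] using N.mul_mem ih (hN ((Q.normalizerMonoidHom ⟨y, h5 hy⟩ ^ i) g))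
  refine map_injective Q.subtype_injective (le_antisymm (map_mono le_top) ?_)
  rw [← MonoidHom.range_eq_map, range_subtype]
  refine h10.ge.trans (commutator_le.2 fun g hg b hb => ?_)
  obtain ⟨i, rfl⟩ := mem_powers_iff_mem_zpowers.2 hb
  refine ⟨_, h11 i ⟨g, hg⟩⁻¹, ?_⟩
  rw [← map_pow]
  show g⁻¹⁻¹ * (y ^ i * g⁻¹ * (y ^ i)⁻¹) = _
  rw [inv_inv, commutatorElement_def, mul_assoc g, mul_assoc g]

/-- The top powers in a `p`-subgroup commute. -/
theorem top_comm (hp2 : p ≠ 2) {F V : Type*} [Field F] [CharP F p] [AddCommGroup V] [Module F V]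
    [FiniteDimensional F V] {ρ : G →* End F V} (hρ : Function.Injective ρ) (hs : IsPSolvable p G)
    (h0 : pCore p G = ⊥) {S : Subgroup G} (hS : IsPGroup p S) :
    IsMulCommutative (closure (Top p (ρ.comp S.subtype))) := abelian_iff_der.2 (by_contra fun h => by
  have hn : (⊤ : Subgroup S) ≤ 𝐍(closure (Top p (ρ.comp S.subtype))) := Two.norm_closure (by
    rintro a - _ ⟨g, n, e1, e2, rfl⟩
    refine ⟨a * g * a⁻¹, n, by rw [conj_pow, e1, mul_one, mul_inv_cancel], ?_, conj_pow⟩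
    have e : ∀ s : S, (ρ.comp S.subtype) s * (ρ.comp S.subtype) s⁻¹ = 1 := fun s => by
      rw [← map_mul, mul_inv_cancel, map_one]
    rw [map_mul, map_mul, ← e a, ← mul_one ((ρ.comp S.subtype) a), mul_assoc _ 1, one_mul, ← sub_mul, ← mul_sub,
      show (ρ.comp S.subtype) a = ((ρ.comp S.subtype).toHomUnits a : End F V) from rfl,
      show (ρ.comp S.subtype) a⁻¹ = (((ρ.comp S.subtype).toHomUnits a)⁻¹ : (End F V)ˣ) from rfl, Units.conj_pow, e2,
      mul_zero, zero_mul])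
  haveI := normalizer_eq_top_iff.1 (top_le_iff.1 (norm_der hn))
  haveI := hS.isNilpotent
  obtain ⟨⟨x, hx1, hx2⟩, hx⟩ := ne_bot_iff_exists_ne_one.1 (PGroup.normal_inf_center_ne_bot _ h)
  obtain ⟨k, hk1, hk2⟩ := PGroup.exists_pow_not_mem_pow_mem (M := ⊥) (hS x) fun e => hx (Subtype.ext e)
  replace hx1 := pow_mem hx1 (p ^ k)
  replace hx2 := pow_mem hx2 (p ^ k)
  generalize x ^ p ^ k = c at *
  obtain ⟨q, Q, h, hq, hqp, hQ, hQ0, cl, pw, h3⟩ := exists_Q' hs h0 hS c.2 (fun e => hk1 (Subtype.ext e))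
    fun s hs => mem_cent1.2 (congrArg Subtype.val (mem_center_iff.1 hx2 ⟨s, hs⟩))
  haveI := Fact.mk hq
  obtain ⟨K, _, _, _, V', _, _, _, φ, hφ⟩ := exists_closure (p := p) F V
  let σ := φ.toMonoidHom.comp ρ
  have hσ : Function.Injective σ := hφ.comp hρ
  let α := Q.normalizerMonoidHom.comp (inclusion h)
  have hc : ∀ s g, σ.comp S.subtype s * σ.comp Q.subtype g = σ.comp Q.subtype (α s g) * σ.comp S.subtype s :=
    fun s g => (σ.map_mul _ _).symm.trans ((congrArg σ (inv_mul_cancel_right _ _).symm).trans (σ.map_mul _ _))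
  obtain ⟨W, hW, h4, h5, h6⟩ := exists_nofix (card_ne_zero hQ hqp) hc (by
    obtain ⟨g, hg⟩ := (nontrivial_iff_exists_ne_one Q).1 ((nontrivial_iff_ne_bot Q).2 hQ0)
    exact ⟨⟨g, hg.1⟩, fun e => hg.2 (hσ (e.trans σ.map_one.symm))⟩)
  haveI := Submodule.nontrivial_iff_ne_bot.2 hW
  have hT : Top p (ρ.comp S.subtype) ⊆ Top p (Representation.subrepresentation (σ.comp S.subtype) W h5) :=
    fun z ⟨g, n, e1, e2, e3⟩ => ⟨g, n, e1, res_pow (h5 g) (by simpa [σ] using congrArg φ e2), e3⟩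
  exact noc hp2 hQ hqp cl pw h3 _ S W (Representation.subrepresentation _ W h4) (Representation.subrepresentation _ W h5)
    α c rfl hS (fun s g => LinearMap.ext fun u => Subtype.ext (LinearMap.congr_fun (hc s g) u))
    (fun v hv => Subtype.ext (h6 v v.2 fun g => congrArg Subtype.val (hv g))) hx2 hk2 rfl
    (commutator_mono (closure_mono hT) (closure_mono hT) hx1))

theorem pLength_le_two_exp (hp2 : p ≠ 2) (k : ℕ) : ∀ (G : Type u) [Group G] [Finite G], IsPSolvable p G →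
    (∀ (x : G) (l : ℕ), x ^ p ^ l = 1 → x ^ p ^ k = 1) → PLengthLE p (2 * k) G := by
  induction k with
  | zero => exact fun G _ _ hs h => pLength_le_exp 0 G hs (fun _ _ _ _ _ => by omega) h
  | succ k ih =>
    intro G _ _ hs he
    have lift : ∀ {A B : Type u} [Group A] [Finite A] [Group B] (f : A →* B), Function.Surjective f →
        (∀ (x : A) (l : ℕ), x ^ p ^ l = 1 → x ^ p ^ (k + 1) = 1) →
        ∀ (x : B) (l : ℕ), x ^ p ^ l = 1 → x ^ p ^ (k + 1) = 1 := fun f hf he x l hx => by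
      obtain ⟨y, rfl, l, hy⟩ := exists_lift hf hx
      rw [← map_pow, he y l hy, map_one]
    obtain ⟨H, _, _, f, hf, hR, -, h⟩ := exists_red hs
    have he1 := lift f hf he
    have hs1 := Core.isPSolvable_quotient hR.sol (pCore p H)
    have he2 := lift _ (QuotientGroup.mk'_surjective (pCore p H)) he1
    obtain ⟨H', _, _, f', hf', hR', -, h'⟩ := exists_red hs1
    refine h _ (h' _ (ih _ (Core.isPSolvable_quotient hR'.sol _) fun x l hx => by_contra fun e => ?_))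
    obtain ⟨n, e₁, ρ, h1, h2, h3, h4, h5, -⟩ := hR.coord
    have hE : ∀ (x : H ⧸ pCore p H) (l : ℕ), x ^ p ^ l = 1 → (ρ x - 1) ^ (p ^ (k + 1) - 1) = 0 := fun x l hx => by
      obtain ⟨y, rfl, l, hy⟩ := exists_lift (QuotientGroup.mk'_surjective _) hx
      refine LinearMap.ext fun u => (h2 _).1 ?_
      have h6 := pow_mul_eq ((h2 0).2 rfl) h4 (h5 y) u (p ^ (k + 1))
      rw [he1 y l hy, mul_one, geom_sum_pow (ZMod p)] at h6
      exact h6.symm.trans (he1 _ (k + 1 + 1) (by rw [pow_succ, pow_mul, h6]; exact hR.ea.2 _ ((h3 _).2 ⟨_, rfl⟩)))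
    obtain ⟨y, rfl, l, hy⟩ := exists_lift (QuotientGroup.mk'_surjective _) hx
    obtain ⟨n', e₂, ρ', k1, k2, k3, k4, k5, -⟩ := hR'.coord
    obtain ⟨S, hS, hSm, -⟩ := PLocal.exists_isPGroup_map_eq hf' (IsPGroup.to_sup_of_normal_left
      (Core.pCore_isPGroup p H') (K := zpowers y) fun z => ⟨l, Subtype.ext (orderOf_dvd_iff_pow_eq_one.1
        ((orderOf_dvd_of_mem_zpowers z.2).trans (orderOf_dvd_of_pow_eq_one hy)))⟩)
    haveI := top_comm hp2 h1 hs1 (Core.pCore_quotient_pCore p H) hS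
    have hT : ∀ g : S, g ^ p ^ k ∈ closure (Top p (ρ.comp S.subtype)) := fun g => by
      obtain ⟨j, hj⟩ := hS g
      exact subset_closure ⟨g, k, Subtype.ext (he2 g j (congrArg Subtype.val hj)), hE g j (congrArg Subtype.val hj), rfl⟩
    have hr : (ρ' y - 1) ^ (p ^ k + (p ^ k - 1)) = 0 := LinearMap.ext fun u => by
      obtain ⟨a, ha, ea⟩ := hSm.ge (mem_sup_right (mem_zpowers y))
      obtain ⟨b, hb, eb⟩ := hSm.ge (mul_mem (mem_sup_left ((k3 _).2 ⟨u, rfl⟩)) (mem_sup_right (mem_zpowers y)))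
      have k6 := congrArg (fun z : S => f' z) (setLike_mul_comm (hT ⟨a, ha⟩) (hT ⟨b, hb⟩))
      simp only [Subgroup.coe_mul, Subgroup.coe_pow, map_mul, map_pow, ea, eb] at k6
      rw [pow_mul_eq ((k2 0).2 rfl) k4 (k5 y), geom_sum_pow (ZMod p), ← mul_assoc, mul_left_inj,
        ← mul_inv_eq_iff_eq_mul, ← k5] at k6
      rw [pow_add, sub_one_pow_pow (ZMod p), End.mul_apply, LinearMap.zero_apply, ← map_pow, LinearMap.sub_apply,
        ← k2, End.one_apply, ← mul_left_inj (e₂ (((ρ' y - 1) ^ (p ^ k - 1) : End _ _) u)), ← k4, sub_add_cancel,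
        one_mul]
      exact k6
    haveI : Nontrivial (Fin n' → ZMod p) := not_subsingleton_iff_nontrivial.1 fun _ => e (k1 (Subsingleton.elim _ _))
    have k7 := Nat.one_le_pow k p hp.1.pos
    have k8 : 3 * p ^ k ≤ p ^ (k + 1) := by
      rw [pow_succ']; exact Nat.mul_le_mul_right _ (by have := hp.1.two_le; omega)
    rcases ModB.thmB k1 (Core.isPSolvable_quotient hR'.sol _) (Core.pCore_quotient_pCore p H')
      (orderOf_eq_prime_pow e (by rw [← map_pow, lift f' hf' he2 y l hy, map_one])) hr with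
      k9 | ⟨n₀, -, -, k9, k10, -, -, -, -, k11⟩
    · omega
    · rw [Nat.mul_sub, ← pow_add, Nat.sub_add_cancel k10, mul_one] at k11
      have := Nat.pow_le_pow_right hp.1.pos (show k + 1 - n₀ ≤ k by omega)
      omega

end Cfsg.Lib.HH.Ferm
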