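import Cfsg.Agent.Lib.HH.Shult

/-!
# Fixed-point-free automorphisms of `2`-power order (Gross)
-/

set_option autoImplicit false

namespace Cfsg.Lib.HH

open Subgroup Cfsg.Lib.BG Cfsg.Lib.PGroup
open scoped Cfsg.Lib.Transfer commutatorElement

universe u v

open Matrix in
theorem exists_rep' {G : Type*} [Group G] [Finite G] {l : ℕ} [Fact l.Prime] {V : Subgroup G}
    (hV : IsElementaryAbelian l V) (k : Type*) [Field k] [Algebra (ZMod l) k] :
    ∃ (n : ℕ) (ρ : 𝐍(V) →* Module.End k (Fin n → k)), ρ.ker = 𝐂(V).subgroupOf 𝐍(V) ∧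
      ∀ B C : Subgroup G, B ≤ 𝐍(V) → ¬ l ∣ Nat.card B → V ⊓ 𝐂(B) ≤ 𝐂(C) →
        fix ρ (B.subgroupOf _) ≤ fix ρ (C.subgroupOf _) := by
  classical
  obtain ⟨c⟩ := PLocal.nonempty_elemAbCoord hV
  let π : Matrix (Fin c.n) (Fin c.n) (ZMod l) →+* Module.End k (Fin c.n → k) :=
    (Matrix.toLinAlgEquiv' (R := k) (n := Fin c.n)).toRingHom.comp (algebraMap (ZMod l) k).mapMatrix
  have hπ : Function.Injective π := (Matrix.toLinAlgEquiv' (R := k) (n := Fin c.n)).injective.comp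
    (Matrix.map_injective (algebraMap (ZMod l) k).injective)
  refine ⟨c.n, π.toMonoidHom.comp c.ρ, ?_, fun B C hBV hB h0 v hv g hg => ?_⟩
  · ext g
    rw [MonoidHom.mem_ker, mem_subgroupOf, ← c.rho_eq_one_iff, ← hπ.eq_iff, map_one]; rfl
  have := Fintype.ofFinite (B.subgroupOf 𝐍(V))
  have h1 : c.ρ g * ∑ b : B.subgroupOf 𝐍(V), c.ρ b = ∑ b : B.subgroupOf 𝐍(V), c.ρ b := by
    refine Matrix.ext_of_mulVec_single fun i => c.inj ?_
    rw [← Matrix.mulVec_mulVec, c.conj, mul_inv_eq_iff_eq_mul]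
    refine mem_cent.1 (h0 ⟨c.mem _, mem_cent.2 fun b hb => ?_⟩) g hg
    rw [← mul_inv_eq_iff_eq_mul]
    change ((⟨b, hBV hb⟩ : 𝐍(V)) : G) * _ * ((⟨b, hBV hb⟩ : 𝐍(V)) : G)⁻¹ = _
    rw [← c.conj, Matrix.mulVec_mulVec, Finset.mul_sum]
    congr 2
    exact Fintype.sum_equiv (Equiv.mulLeft ⟨⟨b, hBV hb⟩, hb⟩) _ _ fun x => by simp
  have h2 : π (∑ b : B.subgroupOf 𝐍(V), c.ρ b) v = (Nat.card B : k) • v := by
    rw [map_sum, LinearMap.sum_apply]
    refine (Finset.sum_congr rfl fun (b : B.subgroupOf 𝐍(V)) _ => hv b b.2).trans ?_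
    rw [Finset.sum_const, ← Nat.cast_smul_eq_nsmul k, Finset.card_univ, ← Nat.card_eq_fintype_card, subOf_card hBV]
  have h3 := congrArg (fun x => π x v) h1
  simp only [map_mul, Module.End.mul_apply, h2, map_smul] at h3
  haveI : CharP k l := (RingHom.charP_iff_charP (algebraMap (ZMod l) k) l).1 inferInstance
  exact smul_right_injective _ (cast_card_ne_zero hB) h3

theorem le_zpowers_of_cyclic {G : Type*} [Group G] [Finite G] {p : ℕ} [hp : Fact p.Prime] {X T : Subgroup G}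
    (hX : IsCyclic X) (hXp : IsPGroup p X) (hTX : T ≤ X) (hT : Nat.card T = p) :
    ∀ y ∈ X, y ≠ 1 → T ≤ zpowers y := fun y hy hy1 => by
  obtain ⟨C, hC, h⟩ := exists_card_eq_prime hp.out (pgroup_dvd_card (pgroup_of_le hXp (zpowers_le.2 hy))
    (by rwa [Ne, zpowers_eq_bot]))
  rwa [cyclic_eq_of_card hX hTX (hC.trans (zpowers_le.2 hy)) (hT.trans h.symm)]

theorem card_fun_eq_pow (k : Type*) [Field k] [Finite k] (l : ℕ) [Fact l.Prime] [CharP k l] (n : ℕ) :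
    ∃ m, Nat.card (Fin n → k) = l ^ m := by
  have := Fintype.ofFinite k
  obtain ⟨d, -, hd⟩ := FiniteField.card k l
  exact ⟨d * n, by rw [Nat.card_fun, Nat.card_eq_fintype_card, hd, Nat.card_eq_fintype_card, Fintype.card_fin, pow_mul]⟩

section Rep

variable {k Γ W : Type*} [Field k] [Group Γ] [AddCommGroup W] [Module k W] {ρ : Γ →* Module.End k W} [Finite Γ]
  [Finite W]

theorem le_cent_of_fix_le {r : ℕ} [Fact r.Prime] (hρ : Function.Injective ρ) {Q X T : Subgroup Γ} (hQ : IsPGroup r Q)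
    (hX : IsMulCommutative X) (hTX : T ≤ X) (hT : ∀ y ∈ X, y ≠ 1 → T ≤ zpowers y) (hT2 : Nat.card T = 2)
    (hXQ : X ≤ 𝐍(Q)) (hc : (Nat.card X).Coprime (Nat.card Q)) (hr : HasEnoughRootsOfUnity k r)
    (hQW : (Nat.card Q).Coprime (Nat.card W)) (hXW : (Nat.card X).Coprime (Nat.card W)) (h0 : fix ρ X = ⊥)
    (hM : ∀ Y < X, fix ρ T ≤ fix ρ Y) (hn : ∀ m, m ≠ 0 → Nat.card X ≠ r ^ m + 1) : T ≤ 𝐂(Q) := by
  by_contra hne
  obtain ⟨P, hPQ, hXP, h1, -, hP⟩ := exists_spec hQ hXQ hTX (abelian_norm hX hTX) (coprime_mono hc hTX le_rfl) hne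
  have hcP := coprime_mono hc le_rfl hPQ
  have hcT := coprime_mono hcP hTX le_rfl
  have hPW := hQW.coprime_dvd_left (card_dvd hPQ)
  rcases hP with hP | hP
  · refine h1 (comm_eq_bot_iff'.1 (eq_bot_mono (fixer_top_eq_bot hρ) (comm_le_fixer_of_abelian
      ((abelian_iff_der.1 hP).le.trans bot_le) hX hTX hT hXP hcP (inv_top _) hPW (by rw [h0, inf_bot_eq]))))
  obtain ⟨μ, hμ⟩ := hP.exists_wt hρ hr
  obtain ⟨h2, h3, h4, -, m, hm, -, h5, -⟩ := hP.weight hX hTX hT hXP le_sup_right hcP hcT hPW hXW h0 hμ rfl rfl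
  rcases (inf_le_left : X ⊓ stab 𝐙(P) μ ≤ X).lt_or_eq with h6 | h6
  · refine h4 (comm_le_fixer_of_prime hP.norm (hT2 ▸ Nat.prime_two) hcT (fun n hn e => ?_)
      ((blk_wt _ μ).inv.mono (sup_le ((cent_symm (inf_le_right : 𝐙(P) ≤ _)).trans (cent_le_stab _ μ))
        (h2.trans inf_le_right))) ((hPW.mul_left (hXW.coprime_dvd_left (card_dvd hTX))).coprime_dvd_left
          (Coprime.card_sup_dvd hP.norm)) (eq_bot_iff.2 ((inf_le_inf_left _ (hM _ h6)).trans h3.le)))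
    have := Nat.one_lt_two_pow hn
    omega
  · exact hn m hm (h6 ▸ h5)

end Rep

theorem comm_le_cent_of_cent_le {G : Type*} [Group G] [Finite G] {q r a m : ℕ} [hq : Fact q.Prime] [hr : Fact r.Prime]
    (hqr : q ≠ r) (hr2 : r ≠ 2) {M Q : Subgroup G} (hM : IsElementaryAbelian q M) (hQ : IsPGroup r Q) (hQM : Q ≤ 𝐍(M))
    {y : G} (hyM : y ∈ 𝐍(M)) (hyQ : y ∈ 𝐍(Q)) (hy : orderOf y = 2 ^ (a + 2)) (hm : m ≠ 0)
    (ha : 2 ^ (a + 2) = q ^ m + 1) (hC : M ⊓ 𝐂(zpowers (y ^ 2 ^ (a + 1))) ≤ 𝐂(zpowers y)) :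
    ⁅Q, zpowers (y ^ 2 ^ (a + 1))⁆ ≤ 𝐂(M) := by
  by_contra hne
  have hq2 : q ≠ 2 := by
    rintro rfl
    have h1 : 2 ∣ 2 ^ m + 1 := ha ▸ dvd_pow_self 2 (by omega)
    have := (Nat.dvd_add_right (dvd_pow_self 2 hm)).1 h1
    omega
  obtain ⟨k, _, _, _, _, hk⟩ := exists_field q hr.out.ne_zero
  obtain ⟨n, ρ, hker, hfix⟩ := exists_rep' hM k
  obtain ⟨e, hW⟩ := card_fun_eq_pow k q n
  have hf : ρ.toHomUnits.ker = 𝐂(M).subgroupOf 𝐍(M) := by rw [← hker]; ext; simp [Units.ext_iff]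
  haveI : Finite (Module.End k (Fin n → k)) := Finite.of_injective _ DFunLike.coe_injective
  have hTM : zpowers (y ^ 2 ^ (a + 1)) ≤ 𝐍(M) := zpowers_le.2 (pow_mem hyM _)
  set t := ρ.toHomUnits ⟨y, hyM⟩ with ht
  have hneg : ∀ n, Even n → (-t) ^ n = t ^ n := fun n hn => hn.neg_pow t
  have hT : im ρ.toHomUnits (zpowers (y ^ 2 ^ (a + 1))) = zpowers ((-t) ^ 2 ^ (a + 1)) := by
    rw [hneg _ (Nat.even_pow.2 ⟨even_two, Nat.succ_ne_zero _⟩), ht, ← map_pow, ← im_zpowers]; rfl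
  have h1 : (-t) ^ 2 ^ (a + 1) ≠ 1 := fun e => hne (by
    rw [e, zpowers_one_eq_bot, im_eq_bot_iff hf hTM] at hT
    exact (commutator_mono le_rfl hT).trans (comm_le_right (norm_cent hQM)))
  have h2 : (-t) ^ 2 ^ (a + 2) = 1 := by
    rw [hneg _ (Nat.even_pow.2 ⟨even_two, Nat.succ_ne_zero _⟩), ht, ← map_pow, show (⟨y, hyM⟩ : 𝐍(M)) ^ 2 ^ (a + 2) = 1 from
      Subtype.ext (hy ▸ pow_orderOf_eq_one y), map_one]
  have h3 : Nat.card (zpowers (-t)) = 2 ^ (a + 2) := by rw [Nat.card_zpowers, orderOf_eq_prime_pow h1 h2]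
  have h4 : Nat.card (zpowers ((-t) ^ 2 ^ (a + 1))) = 2 := by
    rw [Nat.card_zpowers, orderOf_eq_prime (by rw [← pow_mul, ← pow_succ, h2]) h1]
  have h5 : ∀ v ∈ fix (Units.coeHom _) (zpowers ((-t) ^ 2 ^ (a + 1))), (t : Module.End k _) v = v := fun v hv =>
    hfix _ _ hTM (by
      rw [Nat.card_zpowers]
      exact fun e => hq2 ((Nat.prime_dvd_prime_iff_eq hq.out Nat.prime_two).1 (hq.out.dvd_of_dvd_pow
        (hy ▸ e.trans (orderOf_pow_dvd _))))) hC (fun b hb => hv _ (hT.le ⟨b, hb, rfl⟩)) ⟨y, hyM⟩ (mem_zpowers y)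
  have hXp : IsPGroup 2 (zpowers (-t)) := IsPGroup.of_card h3
  have hTX := zpowers_le.2 (pow_mem (mem_zpowers (-t)) (2 ^ (a + 1)))
  refine hne ((im_le_cent_iff hf hQM hTM).1 (cent_symm (hT ▸ le_cent_of_fix_le (ρ := Units.coeHom _) (r := r)
    Units.val_injective (pgroup_im hQ) inferInstance hTX (le_zpowers_of_cyclic inferInstance hXp hTX h4) h4
    (zpowers_le.2 ?_) (coprime_pgroups hXp (pgroup_im hQ) hr2.symm) (hk r dvd_rfl fun e =>
      hqr ((Nat.prime_dvd_prime_iff_eq hq.out hr.out).1 e)) (hW ▸ coprime_of_pgroup hqr.symm (pgroup_im hQ))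
    (hW ▸ coprime_of_pgroup hq2.symm hXp) (eq_bot_iff.2 fun v hv => ?_) (fun Y hY v hv g hg => ?_) fun m' hm' e => ?_)))
  · rw [show -t = -1 * t from neg_eq_neg_one_mul t]
    exact mul_mem (cent_le_norm _ (mem_cent.2 fun h _ => (mul_neg_one h).trans (neg_one_mul h).symm))
      (im_norm (zpowers_le.2 hyQ) ⟨⟨y, hyM⟩, mem_zpowers y, rfl⟩)
  · have h6 := hv _ (mem_zpowers (-t))
    rw [Units.coeHom_apply, Units.val_neg, LinearMap.neg_apply, h5 v (fix_anti hTX hv), neg_eq_iff_add_eq_zero,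
      ← two_smul k, smul_eq_zero] at h6
    exact h6.resolve_left (cast_card_ne_zero (k := k) (l := q) (n := 2) fun e =>
      hq2 ((Nat.prime_dvd_prime_iff_eq hq.out Nat.prime_two).1 e))
  · obtain ⟨i, rfl⟩ := mem_powers_iff_mem_zpowers.2 (hY.le hg)
    beta_reduce at hg ⊢
    rcases Nat.even_or_odd i with hi | hi
    · rw [hneg i hi]
      exact (zpowers_le.2 (show t ∈ fixer (Units.coeHom _) (Submodule.span k {v}) from fun u hu => by
        obtain ⟨c, rfl⟩ := Submodule.mem_span_singleton.1 hu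
        rw [map_smul]; exact congrArg _ (h5 v hv))) (pow_mem (mem_zpowers t) i) v (Submodule.mem_span_singleton_self v)
    · refine absurd (zpowers_le.2 (zpowers_le.2 hg (mem_zpowers_pow_iff.2 ?_))) hY.not_ge
      rw [← Nat.card_zpowers, h3]
      exact (Nat.coprime_two_right.2 hi).pow_right _
  · rw [h3, ha, Nat.add_right_cancel_iff] at e
    exact hqr ((Nat.prime_dvd_prime_iff_eq hq.out hr.out).1 (hq.out.dvd_of_dvd_pow (e ▸ dvd_pow_self q hm)))

section Rep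

variable {k Γ W : Type*} [Field k] [Group Γ] [AddCommGroup W] [Module k W] {ρ : Γ →* Module.End k W} [Finite Γ]
  [Finite W]

theorem gross_core {q r : ℕ} [hq : Fact q.Prime] [Fact r.Prime] (hqr : q ≠ r) (hρ : Function.Injective ρ)
    {P Q X T : Subgroup Γ} (hP : IsPGroup q P) (hQ : IsPGroup r Q) (hX : IsCyclic X) (hXp : IsPGroup 2 X) (hTX : T ≤ X)
    (hT2 : Nat.card T = 2) (hXP : X ≤ 𝐍(P)) (hXQ : X ≤ 𝐍(Q)) (hQP : Q ≤ 𝐍(P))
    (hcP : (Nat.card X).Coprime (Nat.card P)) (hcQ : (Nat.card X).Coprime (Nat.card Q))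
    (hr : HasEnoughRootsOfUnity k q) (hPW : (Nat.card P).Coprime (Nat.card W))
    (hXW : (Nat.card X).Coprime (Nat.card W)) (h0 : fix ρ X = ⊥) : ⁅Q, T⁆ ≤ 𝐂(P) := by
  by_contra hne
  have hab := abelian_of_cyclic hX
  have hT := le_zpowers_of_cyclic hX hXp hTX hT2
  have hBT := coprime_commGid (hTX.trans hXQ) (coprime_mono hcQ hTX le_rfl)
  have hBQ : ⁅Q, T⁆ ≤ Q := comm_le_left (hTX.trans hXQ)
  have hXB : X ≤ 𝐍(⁅Q, T⁆) := norm_comm hXQ (abelian_norm hab hTX)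
  set B := ⁅Q, T⁆ with hB
  have hBr := pgroup_of_le hQ hBQ
  obtain ⟨E, hEP, hn, h1, -, hE⟩ := exists_spec (A := B ⊔ X) hP (sup_le (hBQ.trans hQP) hXP) le_sup_left
    (sup_le_norm_left hXB) (coprime_pgroups hBr hP hqr.symm) hne
  have hXE := le_sup_right.trans hn
  have hcE := coprime_mono hcP le_rfl hEP
  have hEW := hPW.coprime_dvd_left (card_dvd hEP)
  rcases hE with hE | hE
  · refine h1 (hBT.ge.trans ((commutator_mono le_rfl (comm_eq_bot_iff'.1 (eq_bot_mono (fixer_top_eq_bot hρ)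
      (comm_le_fixer_of_abelian ((abelian_iff_der.1 hE).le.trans bot_le) hab hTX hT hXE hcE (inv_top _) hEW
        (by rw [h0, inf_bot_eq]))))).trans (comm_le_right (norm_cent (le_sup_left.trans hn)))))
  obtain ⟨μ, hμ⟩ := hE.exists_wt hρ hr
  obtain ⟨h2, -, -, -, m, hm, -, h3, h4⟩ := hE.weight hab hTX hT hXE (hBT.ge.trans le_sup_left) hcE
    (coprime_pgroups hBr hE.pgroup hqr.symm) hEW hXW h0 hμ rfl rfl
  have hSK := (blk_wt (ρ := ρ) 𝐙(E) μ).inv.norm_fixer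
  set K := fixer ρ (wt ρ 𝐙(E) μ) with hK
  set S := stab 𝐙(E) μ with hS
  set R := E ⊓ K ⊔ 𝐙(E) with hR
  have hZE : 𝐙(E) ≤ E := inf_le_left
  have hRE : R ≤ E := sup_le inf_le_left hZE
  have hnR : ∀ {D : Subgroup Γ}, D ≤ S → D ≤ 𝐍(E) → D ≤ 𝐍(R) := fun h1 h2 =>
    norm_sup (norm_inf h2 (h1.trans hSK)) (norm_center h2)
  have hES : E ≤ S := (cent_symm (inf_le_right : 𝐙(E) ≤ _)).trans (cent_le_stab _ μ)
  have hER := hnR hES (le_norm E)
  have hBR := hnR ((cent_symm (hE.cent.ge.trans inf_le_right)).trans (cent_le_stab _ μ)) hE.norm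
  obtain ⟨y, hy, hY⟩ := cyclic_iff.1 (cyclic_of_le hX (inf_le_left : X ⊓ S ≤ X))
  have hYR : zpowers y ≤ 𝐍(R) := hY ▸ hnR inf_le_right (inf_le_left.trans hXE)
  have hYX : zpowers y ≤ X := zpowers_le.2 hy.1
  rw [← hY] at h2 h3 h4
  obtain ⟨a, ha⟩ : ∃ a, Nat.card (zpowers y) = 2 ^ (a + 2) := by
    obtain ⟨b, hb⟩ := (pgroup_of_le hXp hYX).exists_card_eq
    have := Nat.one_lt_pow hm hq.out.one_lt
    exact ⟨b - 2, by rw [hb, Nat.sub_add_cancel ((Nat.pow_lt_pow_iff_right one_lt_two).1 (show 2 ^ 1 < _ by omega))]⟩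
  have hTy : T = zpowers (y ^ 2 ^ (a + 1)) := cyclic_eq_of_card hX hTX (zpowers_le.2 (pow_mem hy.1 _)) (by
    rw [hT2, Nat.card_zpowers, orderOf_pow, ← Nat.card_zpowers, ha,
      Nat.gcd_eq_right (pow_dvd_pow 2 (Nat.le_succ _)), pow_succ, Nat.mul_div_cancel_left _ (by positivity)])
  set z : 𝐍(R) := ⟨y, hYR (mem_zpowers y)⟩ with hz
  have h5 : zpowers (qhom R z) = quo (zpowers y) R := (im_zpowers z).symm
  have h6 : zpowers (qhom R z ^ 2 ^ (a + 1)) = quo T R := by rw [hTy, ← map_pow]; exact (im_zpowers _).symm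
  have h7 := comm_le_cent_of_cent_le (M := quo E R) (Q := quo B R) (y := qhom R z) (a := a) hqr
    (fun e => ?_) ⟨(quo_abelian_iff hER).2 (hE.der.le.trans le_sup_right), ?_⟩ (pgroup_quo hBr R) (quo_norm hE.norm R)
    (zpowers_le.1 (h5 ▸ quo_norm (hYX.trans hXE) R)) (zpowers_le.1 (h5 ▸ quo_norm (hYX.trans hXB) R))
    (by rw [← Nat.card_zpowers, h5, card_quo_of_disjoint hYR (disjoint_of_coprime (coprime_mono hcE hYX hRE).symm), ha])
    hm (ha.symm.trans h3) (by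
      rw [h5, h6, coprime_quo_cent (hTX.trans hXE) (h2.trans hYR) hER (coprime_mono hcE hTX le_rfl)
        (Or.inr (pgroup_sol hE.pgroup)), quo_le_cent_iff (inf_le_left.trans hER) hYR]
      exact le_trans (le_inf ((commutator_mono inf_le_left le_rfl).trans (comm_le_left (hYX.trans hXE))) h4) le_sup_left)
  · rw [h6, ← quo_comm hBR (h2.trans hYR), hBT, quo_le_cent_iff hBR hER, commutator_comm, hE.comm] at h7
    have hEK : E ≤ 𝐍(E ⊓ K) := norm_inf (le_norm E) (hES.trans hSK)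
    exact hμ (hE.der.ge.trans ((comm_le_of_le_sup_cent h7 (hZE.trans hEK) inf_le_right hEK).trans inf_le_right))
  · subst e
    refine h1 (le_trans (le_of_eq (not_not.1 fun e => ?_)) bot_le)
    exact (Nat.Prime.coprime_iff_not_dvd Nat.prime_two).1 (hT2 ▸ coprime_mono hcQ hTX hBQ) (pgroup_dvd_card hBr e)
  · intro x hx
    obtain ⟨x, hx', rfl⟩ := mem_quo.1 hx
    rw [← map_pow, ← MonoidHom.mem_ker, qhom_ker]
    exact mem_sup_right (hE.pow x hx')

end Rep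

variable {A : Type v} [Group A]

theorem gross_res [Finite A] [IsCyclic A] (hA : IsPGroup 2 A) {B : Subgroup A} (hB : Nat.card B = 2) {G : Type u}
    [Group G] [Finite G] {φ : A →* G} {X : Subgroup G} (hX : FPF φ X) : res 2 ⁅X, B.map φ⁆ = ⊥ := by
  refine nilRes_eq_bot_iff.2 (nil_of_rep' (fun _ _ φ X => nilRes ⁅X, B.map φ⁆)
    (fun _ _ φ X h => (nilRes_le _).trans (comm_le_left ((map_mono le_top).trans (map_le_norm_iff.2 h))))
    (fun _ _ _ _ _ f φ X => by rw [map_nilRes, map_commutator, map_map]) ?_ G φ X hX)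
  intro Γ _ _ φ X l _ k _ _ W _ _ _ ρ hρ hX h0 hr hl ⟨m, hW⟩ hfix
  have hd : Nat.card ((⊤ : Subgroup A).map φ) ∣ Nat.card A := (card_map_dvd _ _).trans card_top.dvd
  rcases (Nat.dvd_prime Nat.prime_two).1 (hB ▸ card_map_dvd B φ) with hT | hT
  · rw [card_eq_one.1 hT, commutator_bot_right]; exact eq_bot_mono rfl (nilRes_le _)
  have hH : Nml ⁅X, B.map φ⁆ X := ⟨comm_le_left (hX.norm' B), left_norm_comm _ _⟩
  have hHT := coprime_commGid (hX.norm' B) (hX.cop' B le_rfl)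
  have hc : IsCyclic ((⊤ : Subgroup A).map φ) := cyclic_map φ inferInstance
  have hAH : (⊤ : Subgroup A).map φ ≤ 𝐍(⁅X, B.map φ⁆) :=
    norm_comm (hX.norm' ⊤) (abelian_norm (abelian_of_cyclic hc) (map_mono le_top))
  set H := ⁅X, B.map φ⁆
  have hs := sol_of_le hX.sol hH.le
  refine nilRes_eq_bot_iff.2 (nil_of_le (Fitting_nil H) (le_Fitting_of_cent (Nml.refl H) hs fun r R hr' hR hRr => ?_))
  haveI := Fact.mk hr'
  refine cent_symm (nil_le_of_pcore_le (nil_of_le (Fitting_nil H) (pcore_le _ _)) fun q hq hqd => ?_)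
  haveI := Fact.mk hq
  have hqr : q ≠ r := fun e => (pcore_pi {r}ᶜ 𝐅(H)).not_dvd hr' rfl (e ▸ hqd)
  refine (le_pcore_of_le_Fitting ((pcore_le _ _).trans (pcore_le _ _)) (pcore_pgroup q _)).trans (cent_symm ?_)
  rcases eq_or_ne q l with rfl | hql
  · rw [eq_bot_mono h0 (hH.pcore_le _)]; exact cent_symm bot_le
  have hN : Nml (H ⊓ 𝐂(𝐎({q}, H))) H := Nml.cent (pcore_nml _ _).norm
  have h1 := le_of_forall_comm_le (q := q) hs hAH (hX.cop' ⊤ hH.le) (map_mono (le_top (a := B))) hN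
    (norm_inf hAH (norm_cent (norm_pcore hAH _))) fun s S hs' hsq hSH hS hAS => by
      haveI := Fact.mk hs'
      exact le_inf ((comm_le_left ((map_mono le_top).trans hAS)).trans hSH) (gross_core hsq.symm hρ (pcore_pgroup q H) hS
        hc ((hA.to_subgroup ⊤).map φ) (map_mono le_top) hT (norm_pcore hAH _) hAS (hSH.trans (pcore_nml _ _).norm)
        (hX.cop' ⊤ ((pcore_le _ _).trans hH.le)) (hX.cop' ⊤ (hSH.trans hH.le))
        (hr q (hqd.trans (card_dvd (((pcore_le _ _).trans (Fitting_le H)).trans hH.le)))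
          fun e => hql ((Nat.prime_dvd_prime_iff_eq Fact.out hq).1 e).symm)
        (hW ▸ coprime_of_pgroup hql (pcore_pgroup q H))
        (hW ▸ ((Nat.Prime.coprime_iff_not_dvd Fact.out).2 fun e => hl (e.trans hd)).symm.pow_right m) hfix)
  rw [hHT] at h1
  exact ((p'_of_pgroup hRr hqr.symm).le_of_relIndex hR hN.norm (by rwa [compl_compl])).trans inf_le_right

/-- The theorem of Gross. -/
theorem res_eq_bot_of_cyclic_two (n : ℕ) : ∀ {A : Type v} [Group A] [Finite A] [IsCyclic A], Nat.card A = 2 ^ (n + 2) →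
    ∀ {G : Type u} [Group G] [Finite G] {φ : A →* G} {X : Subgroup G}, FPF φ X → res (2 * n + 2) X = ⊥ := by
  induction n with
  | zero =>
    intro A _ _ _ hA G _ _ φ X hX
    exact (res_succ_eq_bot_iff 1).2 ((nilRes_le_lcs X 1).trans (der_le_Fitting_of_four hA.dvd hX))
  | succ n ih =>
    intro A _ _ _ hA G _ _ φ X hX
    obtain ⟨B, _, -, hB, hq⟩ := exists_socle hA
    obtain ⟨ψ, -, h⟩ := hX.exists_quot_fpf B (left_norm_comm X (B.map φ)) (map_le_norm_iff.1 (norm_comm (hX.norm' ⊤)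
      (map_norm φ le_normalizer_of_normal))) le_rfl
    haveI := isCyclic_of_surjective _ (QuotientGroup.mk'_surjective B)
    have h1 := ih hq h
    rw [res_holG_eq_bot_iff, res_top_eq_bot_iff, res_quo_eq_bot_iff (left_norm_comm X _)] at h1
    exact res_add_eq_bot h1 (gross_res (IsPGroup.of_card hA) hB hX)

end Cfsg.Lib.HH
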