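import Cfsg.Agent.Lib.HH.Spec

/-!
# Lifting a module of a group of class two to a larger operator group
-/

set_option autoImplicit false

namespace Cfsg.Lib.HH

open Subgroup Cfsg.Lib.BG Cfsg.Lib.Char
open scoped Cfsg.Lib.Transfer commutatorElement

variable {A : Type*} [Group A] [Finite A]

theorem exists_hom_extend {N Y : Subgroup A} [N.Normal] (h : N ⊓ Y = ⊥) (h' : N ⊔ Y = ⊤) {M : Type*} [Group M]
    (f : Y →* M) : ∃ F : A →* M, (∀ x : Y, F x = f x) ∧ ∀ y ∈ N, F y = 1 := by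
  have hc := Core.isComplement'_of_inf_eq_bot h h'
  refine ⟨f.comp ((hc.symm.QuotientMulEquiv).toMonoidHom.comp (QuotientGroup.mk' N)), fun x => ?_, fun y hy => ?_⟩
  · have : hc.symm.QuotientMulEquiv (x : A) = x := by
      rw [← MulEquiv.eq_symm_apply]
      rfl
    simp [this]
  · rw [MonoidHom.comp_apply, MonoidHom.comp_apply, QuotientGroup.mk'_apply, (QuotientGroup.eq_one_iff y).2 hy,
      map_one, map_one]

theorem lift_top {E Z D Y : Subgroup A} (htop : E ⊔ (D ⊔ Y) = ⊤) (hZ : (Nat.card Z).Prime) (hZE : Z ≤ 𝐙(E))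
    (hE : ⁅E, E⁆ ≤ Z) (hn : D ⊔ Y ≤ 𝐍(E)) (hc : D ⊔ Y ≤ 𝐂(𝐙(E))) (hcop : (Nat.card E).Coprime (Nat.card ↥(D ⊔ Y)))
    (hY : (Nat.card Y).Prime) (hYD : Y ≤ 𝐍(D)) (hcD : (Nat.card Y).Coprime (Nat.card D))
    (hexc : ∀ n, n ≠ 0 → Nat.card Y = 2 ^ n + 1 → ∀ P ≤ D, IsPGroup 2 P → IsMulCommutative P)
    {ψ : ↥(E ⊔ Y) → ℂ} (hψ : IsIrrCharacter _ ψ) (h1 : ∃ z ∈ Z.subgroupOf (E ⊔ Y), ψ z ≠ ψ 1)
    [Fintype (Y.subgroupOf (E ⊔ Y))] (h0 : classInner (fun x : Y.subgroupOf (E ⊔ Y) => ψ x) (fun _ => 1) = 0) :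
    ⁅D, Y⁆ ≤ 𝐂(E) := by
  classical
  have := Fintype.ofFinite A
  have hEL : E ≤ (E ⊔ Y) := le_sup_left
  have hYL : Y ≤ (E ⊔ Y) := le_sup_right
  have hZL : Z ≤ (E ⊔ Y) := (hZE.trans inf_le_left).trans hEL
  have hYE : Y ≤ 𝐍(E) := le_sup_right.trans hn
  have hcY : (Nat.card E).Coprime (Nat.card Y) := coprime_mono hcop le_rfl le_sup_right
  haveI hEn : E.Normal := normalizer_eq_top_iff.1 (top_le_iff.1 (htop ▸ sup_le_norm_left hn))
  have hZc : 𝐙(E) ≤ center A := by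
    rw [← centralizer_univ, ← coe_top, ← htop]; exact le_cent_sup inf_le_right (cent_symm hc)
  have hne : ∀ z : ↥(E ⊔ Y), (z : A) ∈ Z → z ≠ 1 → ψ z ≠ ψ 1 := fun z hz =>
    apply_ne_of_prime (Z := Z.subgroupOf (E ⊔ Y)) (by rwa [subOf_card hZL]) hψ.isCharacter h1 hz
  obtain ⟨h2, h3⟩ := isIrr_restrict (Q := E.subgroupOf (E ⊔ Y)) (H := Y.subgroupOf (E ⊔ Y)) (Z := (𝐙(E)).subgroupOf (E ⊔ Y))
    (abelian_of_cyclic (cyclic_of_prime (by rwa [subOf_card hYL]))) (by rw [← subOf_sup hEL hYL, subgroupOf_self])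
    (by rwa [subOf_card hEL, subOf_card hYL]) (fun z hz => mem_center_iff.2 fun g => Subtype.ext
      (mem_center_iff.1 (hZc hz) g)) hψ fun x hx hx' => by
      by_contra! e
      refine hx' ⟨hx, fun w hw => commutatorElement_eq_one_iff_mul_comm.1 ?_⟩
      have h6 : ⁅w, (x : A)⁆ ∈ Z := hE (commutator_mem_commutator hw hx)
      by_contra e'
      exact hne ⁅(⟨w, hEL hw⟩ : ↥(E ⊔ Y)), x⁆ h6 (fun e'' => e' (congrArg Subtype.val e'')) (e ⟨w, hEL hw⟩ hw (hZE h6))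
  obtain ⟨χ, hχ, h4⟩ := Clifford.exists_extension_of_coprime E ((Induce.isIrrCharacter_res_subgroupOf_iff hEL).1 h2)
    (fun g n => by
      by_cases h : (n : A) ∈ 𝐙(E)
      · exact congrArg ψ (Subtype.ext (show g * n * g⁻¹ = n from
          mul_inv_eq_iff_eq_mul.2 (mem_center_iff.1 (hZc h) g)))
      · exact (h3 ⟨g * n * g⁻¹, hEL (hEn.conj_mem _ n.2 g)⟩ (hEn.conj_mem _ n.2 g) fun h' => h (by
          have h'' : g * n * g⁻¹ ∈ 𝐙(E) := h'
          have := mem_center_iff.1 (hZc h'') g⁻¹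
          rwa [show (n : A) = g * n * g⁻¹ from mul_right_cancel (b := g⁻¹) (by rw [← this]; group)])).trans
          (h3 ⟨n, hEL n.2⟩ n.2 h).symm)
    (by rwa [(Core.isComplement'_of_inf_eq_bot (disjoint_of_coprime hcop) htop).symm.index_eq_card])
  have h5 : (fun n : E.subgroupOf (E ⊔ Y) => χ n) = fun n : E.subgroupOf (E ⊔ Y) => ψ n := funext fun n => h4 ⟨n, n.2⟩
  obtain ⟨lam, -, h6⟩ := Clifford.exists_hom_mul_eq_of_res_eq (E.subgroupOf (E ⊔ Y)) (hχ.isCharacter.restrict (E ⊔ Y)) (h5 ▸ h2)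
    hψ.isCharacter fun n => (congrFun h5 n).symm
  haveI : (E ⊔ D).Normal := normalizer_eq_top_iff.1 (top_le_iff.1 (htop ▸ sup_assoc E D Y ▸
    sup_le_norm_left (norm_sup hYE hYD)))
  obtain ⟨F, hF, hF'⟩ := exists_hom_extend (N := E ⊔ D) (Y := Y) (disjoint_of_coprime ((hcY.mul_left hcD.symm).coprime_dvd_left
    (Coprime.card_sup_dvd (le_sup_left.trans hn)))) (by rw [sup_assoc, htop]) (lam.comp (inclusion hYL))
  have h7 := Coprime.commutator_le_charKer A hYD hY hcD hexc (hχ.hom_mul F).isCharacter (by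
    rw [← h0, ← classInner_comp_equiv (subgroupOfEquivOfLe hYL)]
    refine congrArg (classInner · _) (funext fun x => ?_)
    rw [h6, hF]; rfl)
  have h8 : ⁅D, Y⁆ ≤ charKer χ := fun x hx => hχ.isCharacter.mem_charKer_iff.2 (by
    have := (hχ.hom_mul F).isCharacter.mem_charKer_iff.1 (h7 hx)
    rwa [hF' x (mem_sup_right (comm_le_left hYD hx)), map_one, Units.val_one, one_mul, one_mul] at this)
  haveI := hχ.isCharacter.charKer_normal
  have hDE : ⁅D, Y⁆ ≤ D ⊔ Y := (comm_le_left hYD).trans le_sup_left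
  refine stable_factor_cent (N := 𝐙(E)) (le_trans ?_ (le_inf inf_le_left (comm_eq_bot_iff.1 (eq_bot_mono
    (show Z ⊓ charKer χ = ⊥ from eq_bot_iff.2 fun z hz => ?_) (le_inf ((commutator_mono inf_le_left le_rfl).trans hE)
      ((commutator_mono inf_le_right le_rfl).trans (commutator_le_left _ _))))) : E ⊓ charKer χ ≤ _)) (hDE.trans hc)
    (coprime_mono hcop.symm hDE inf_le_left)
  · exact le_inf (commutator_le_left _ _) ((commutator_mono le_rfl h8).trans (commutator_le_right _ _))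
  · by_contra e
    refine hne ⟨z, hZL hz.1⟩ hz.1 (fun e' => e (mem_bot.2 (congrArg Subtype.val e'))) ?_
    exact (h4 ⟨z, (hZE hz.1).1⟩).symm.trans ((hχ.isCharacter.mem_charKer_iff.1 hz.2).trans (h4 1))

theorem lift_fpf {E Z D Y V : Subgroup A} (hZ : (Nat.card Z).Prime) (hZE : Z ≤ 𝐙(E))
    (hE : ⁅E, E⁆ ≤ Z) (hn : D ⊔ Y ≤ 𝐍(E)) (hc : D ⊔ Y ≤ 𝐂(𝐙(E))) (hcop : (Nat.card E).Coprime (Nat.card ↥(D ⊔ Y)))
    (hY : (Nat.card Y).Prime) (hYD : Y ≤ 𝐍(D)) (hcD : (Nat.card Y).Coprime (Nat.card D))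
    (hexc : ∀ n, n ≠ 0 → Nat.card Y = 2 ^ n + 1 → ∀ P ≤ D, IsPGroup 2 P → IsMulCommutative P)
    (hV : E ⊔ Y ≤ 𝐍(V)) (hcV : (Nat.card ↥(E ⊔ Y)).Coprime (Nat.card V)) (hs : Group.IsSolvable V)
    (hZV : ¬ Z ≤ 𝐂(V)) (hC : V ⊓ 𝐂(Y) = ⊥) : ⁅D, Y⁆ ≤ 𝐂(E) := by
  classical
  have := Fintype.ofFinite A
  set L := E ⊔ (D ⊔ Y) with hL
  have hEL : E ≤ L := le_sup_left
  have hML : D ⊔ Y ≤ L := le_sup_right
  have hDL := le_sup_left.trans hML
  have hYL := le_sup_right.trans hML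
  have hZL : Z ≤ L := (hZE.trans inf_le_left).trans hEL
  have hZe : 𝐙(E.subgroupOf L) = (𝐙(E)).subgroupOf L := by rw [subOf_cent hEL, subOf_inf]
  have e : E.subgroupOf L ⊔ Y.subgroupOf L = (E ⊔ Y).subgroupOf L := (subOf_sup hEL hYL).symm
  have hm : ∀ B ≤ E ⊔ Y, ((B.subgroupOf L).subgroupOf (E.subgroupOf L ⊔ Y.subgroupOf L)).map
      (L.subtype.comp (Subgroup.subtype _)) = B := fun B hB => by
    rw [← map_map, subOf_map (e ▸ subgroupOf_mono L hB), subOf_map (hB.trans (sup_le hEL hYL))]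
  obtain ⟨l, ψ, hl, -, hψ, h1, h2⟩ := Coprime.exists_irr_of_not_le_centralizer
    (L.subtype.comp (E.subgroupOf L ⊔ Y.subgroupOf L).subtype) (fun a => hV (e.le a.2))
    (by rwa [e, subOf_card (sup_le hEL hYL)]) hs (B := (Z.subgroupOf L).subgroupOf _)
    (by rwa [hm Z ((hZE.trans inf_le_left).trans le_sup_left)])
  obtain ⟨m, h3, h4, -⟩ := h2 ((Y.subgroupOf L).subgroupOf _)
  rw [hm Y le_sup_right, hC, card_bot, Nat.dvd_one, pow_eq_one_iff] at h4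
  have h5 := lift_top (D := D.subgroupOf L) (by rw [← subOf_sup hDL hYL, ← subOf_sup hEL hML, subgroupOf_self])
    (by rwa [subOf_card hZL]) (hZe ▸ subgroupOf_mono L hZE) (by rw [← subOf_comm hEL hEL]; exact subgroupOf_mono L hE)
    (by rw [← subOf_sup hDL hYL]; exact subOf_le_norm hn L)
    (by rw [← subOf_sup hDL hYL, hZe]; exact subOf_le_cent hc L)
    (by rwa [← subOf_sup hDL hYL, subOf_card hEL, subOf_card hML]) (by rwa [subOf_card hYL]) (subOf_le_norm hYD L)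
    (by rwa [subOf_card hYL, subOf_card hDL]) (fun n hn e P hP hP2 =>
      Coprime.isMulCommutative_of_map_injective (subtype_injective _) (hexc n hn (by rwa [subOf_card hYL] at e) _
        (Core.map_subtype_le_iff.2 hP) (hP2.map _))) hψ h1 (by rw [h3, h4.resolve_left hl.one_lt.ne', Nat.cast_zero])
  rwa [← subOf_comm hDL hYL, subOf_cent hEL, subOf_le_iff (comm_le_of_le hDL hYL)] at h5

variable {k Γ W : Type*} [Field k] [Group Γ] [AddCommGroup W] [Module k W] {ρ : Γ →* Module.End k W} [Finite Γ]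
  [Finite W]

theorem lift_rep {E Z B Y : Subgroup Γ} {U : Submodule k W} (hZE : Z ≤ E) (hZ : ((fixer ρ U).relIndex Z).Prime)
    (hE : ⁅E, E⁆ ≤ Z) (hZc : ⁅Z, E⁆ ≤ fixer ρ U) (hn : B ⊔ Y ≤ 𝐍(E))
    (hcop : (Nat.card E).Coprime (Nat.card ↥(B ⊔ Y))) (hY : (Nat.card Y).Prime) (hYB : Y ≤ 𝐍(B))
    (hcB : (Nat.card Y).Coprime (Nat.card B)) (hodd : Odd (Nat.card B)) (hU : Inv ρ (E ⊔ (B ⊔ Y)) U)
    (hc : (Nat.card ↥(E ⊔ Y)).Coprime (Nat.card W)) (h0 : U ⊓ fix ρ Y = ⊥) : ⁅E, ⁅B, Y⁆⁆ ≤ fixer ρ U := by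
  obtain ⟨f, V, hf, hV, hVW, hn', hc', hfix⟩ := exists_hol hU
  have hES : E ≤ E ⊔ (B ⊔ Y) := le_sup_left
  have hMS : B ⊔ Y ≤ E ⊔ (B ⊔ Y) := le_sup_right
  have hBS := le_sup_left.trans hMS
  have hYS := le_sup_right.trans hMS
  have hZS := hZE.trans hES
  have hDB : ⁅B, Y⁆ ≤ B := comm_le_left hYB
  have hDS := hDB.trans hBS
  have hYE := le_sup_right.trans hn
  have hSK := hU.norm_fixer
  set R := E ⊓ PGroup.commStab (fixer ρ U) E with hR
  have hnR : ∀ {C : Subgroup Γ}, C ≤ B ⊔ Y → C ≤ 𝐍(R) := fun h => norm_inf (h.trans hn)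
    (PGroup.le_normalizer_commStab ((h.trans hMS).trans hSK) (h.trans hn))
  have hYY : ∀ y ∈ Y, y ≠ 1 → Y ≤ zpowers y := fun y hy hy1 => (zpowers_eq_of_prime hY hy hy1).ge
  have h1 := comm_le_fixer_of_abelian ((commutator_mono inf_le_left le_rfl).trans
    (PGroup.commutator_le_of_le_commStab inf_le_right)) (abelian_of_cyclic (cyclic_of_prime hY)) le_rfl hYY
    (hnR le_sup_right) (coprime_mono hcop.symm le_sup_right inf_le_left)
    (hU.mono (sup_le (inf_le_left.trans hES) hYS)) (hc.coprime_dvd_left (card_dvd (inf_le_left.trans le_sup_left))) h0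
  have h2 := comm_comm_le_of_comm_le h1 (hYS.trans hSK) (hBS.trans hSK) (hnR le_sup_left)
  have h3 : 𝐙(im f E) ≤ im f R := by
    rintro _ ⟨⟨a, ha, rfl⟩, h⟩
    refine ⟨a, ⟨ha, hSK a.2, fun b hb => ?_⟩, rfl⟩
    have h2 : ⁅a, (⟨b, hES hb⟩ : ↥(E ⊔ (B ⊔ Y)))⁆ ∈ f.ker := by
      rw [MonoidHom.mem_ker, map_commutatorElement, commutatorElement_eq_one_iff_mul_comm]
      exact (mem_cent.1 h _ ⟨_, hb, rfl⟩).symm
    rwa [hf] at h2
  rcases (Nat.dvd_prime hY).1 (card_im_dvd (f := f) hYS) with h4 | h4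
  · exact comm_comm_le_of_comm_le ((commutator_mono le_rfl ((im_eq_bot_iff hf hYS).1 (card_eq_one.1 h4))).trans
      (comm_le_right (hES.trans hSK))) (hYS.trans hSK) (hBS.trans hSK) (le_sup_left.trans hn)
  have hDM : ⁅B, Y⁆ ⊔ Y ≤ B ⊔ Y := sup_le_sup_right hDB Y
  have h5 := lift_fpf (Z := im f Z) (E := im f E) (D := im f ⁅B, Y⁆) (Y := im f Y) (by rwa [card_im hf hZS])
    (le_inf (im_mono hZE) ((im_le_cent_iff hf hZS hES).2 hZc)) (by rw [← im_comm hES hES]; exact im_mono hE)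
    (by rw [← im_sup hDS hYS]; exact im_norm (hDM.trans hn))
    (le_trans (sup_le (cent_symm ((im_le_cent_iff hf (inf_le_left.trans hES) hDS).2 h2))
      (cent_symm ((im_le_cent_iff hf (inf_le_left.trans hES) hYS).2 h1))) (cent_anti h3))
    (by rw [← im_sup hDS hYS]; exact coprime_im hES (hDM.trans hMS) (coprime_mono hcop le_rfl hDM)) (h4 ▸ hY)
    (im_norm (right_norm_comm B Y)) (coprime_im hYS hDS (coprime_mono hcB le_rfl hDB))
    (fun n _ _ P hP hP2 => by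
      rw [card_eq_one.1 (hP2.card_eq_or_dvd.resolve_right fun h => hodd.not_two_dvd_nat
        (h.trans ((card_dvd hP).trans ((card_im_dvd hDS).trans (card_dvd hDB)))))]
      infer_instance) (sup_le (hn' E) (hn' Y))
    (by rw [← im_sup hES hYS]; exact (hc.coprime_dvd_left (card_im_dvd (sup_le hES hYS))).coprime_dvd_right hVW)
    (abelian_sol hV) (fun e => hZ.ne_one (relIndex_eq_one.2 (hc' Z hZS e))) (hfix Y hYS h0)
  rw [← im_comm hDS hYS, coprime_commGid hYB hcB] at h5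
  exact (im_le_cent_iff hf hES hDS).1 (cent_symm h5)

end Cfsg.Lib.HH
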